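import Cfsg.Agent.TwoGroups.SrgSeventySeven.Cocliques
import Cfsg.Agent.Golay.SteinerUnique

/-! The graph is the disjointness graph of a Steiner system on 22 points. -/

set_option autoImplicit false
set_option linter.unusedSectionVars false
open Cfsg

namespace Cfsg.Agent.TwoGroups.SrgSeventySeven

variable {V : Type*} [Fintype V] [DecidableEq V] {G : SimpleGraph V} [DecidableRel G.Adj]

/-- The cocliques through a vertex. -/
def blk (x : V) : Finset {C : Finset V // C ∈ Co G} := Finset.univ.filter fun C => x ∈ C.1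

variable (hG : G.IsSRGWith 77 16 0 4)
include hG

theorem blk_card (x : V) : (blk (G := G) x).card = 6 := by
  rw [← co_six hG x, ← Finset.card_map (Function.Embedding.subtype _)]
  congr 1
  ext C
  simp [blk, and_comm]

theorem blk_inter {x y : V} (h : y ≠ x) : (blk (G := G) x ∩ blk y).card ≤ 2 := by
  refine le_trans (le_of_eq ?_) (co_three hG h)
  rw [← Finset.card_map (Function.Embedding.subtype _)]
  congr 1
  ext C
  simp [blk]
  tauto

theorem adj_iff (x y : V) : G.Adj x y ↔ x ≠ y ∧ Disjoint (blk (G := G) x) (blk y) := by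
  constructor
  · exact fun h => ⟨h.ne, Finset.disjoint_left.2 fun C h1 h2 =>
      (mem_Co.1 C.2).2 x (Finset.mem_filter.1 h1).2 y (Finset.mem_filter.1 h2).2 h⟩
  · rintro ⟨hne, hd⟩
    by_contra h
    obtain ⟨C, hC, hx, hy⟩ := co_pair hG hne.symm h
    exact Finset.disjoint_left.1 hd (show (⟨C, hC⟩ : {C // C ∈ Co G}) ∈ blk x by simp [blk, hx]) (by simp [blk, hy])

theorem blk_injective : Function.Injective (blk (G := G)) := by
  intro x y h
  by_contra hne
  have := blk_inter hG (Ne.symm hne)
  rw [h, Finset.inter_self, blk_card hG] at this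
  omega

theorem points_card : Fintype.card {C : Finset V // C ∈ Co G} = 22 := by
  rw [Fintype.card_coe, co_card hG]

theorem steiner : IsSteinerSystem 3 6 (Set.range (blk (G := G))) := by
  have hall : (Finset.univ : Finset V).biUnion (fun x => (blk (G := G) x).powersetCard 3) =
      Finset.univ.powersetCard 3 := by
    refine Finset.eq_of_subset_of_card_le (fun S hS => ?_) (le_of_eq ?_)
    · obtain ⟨x, -, hS⟩ := Finset.mem_biUnion.1 hS
      rw [Finset.mem_powersetCard] at hS ⊢
      exact ⟨Finset.subset_univ _, hS.2⟩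
    · rw [Finset.card_biUnion, Finset.sum_const_nat (m := 20) fun x _ => by
        rw [Finset.card_powersetCard, blk_card hG]; rfl, Finset.card_univ, hG.card, Finset.card_powersetCard,
        Finset.card_univ, points_card hG]
      · rfl
      · intro x _ y _ hxy
        refine Finset.disjoint_left.2 fun S hS hS' => ?_
        rw [Finset.mem_powersetCard] at hS hS'
        have := Finset.card_le_card (Finset.subset_inter hS.1 hS'.1)
        have := blk_inter hG (Ne.symm hxy)
        omega
  refine ⟨?_, fun S hS => ?_⟩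
  · rintro _ ⟨x, rfl⟩
    exact blk_card hG x
  obtain ⟨x, -, hx⟩ := Finset.mem_biUnion.1 (hall.ge (Finset.mem_powersetCard.2 ⟨Finset.subset_univ S, hS⟩))
  rw [Finset.mem_powersetCard] at hx
  refine ⟨blk x, ⟨⟨x, rfl⟩, hx.1⟩, ?_⟩
  rintro _ ⟨⟨y, rfl⟩, hy⟩
  by_contra hne
  have := Finset.card_le_card (Finset.subset_inter hy hx.1)
  have := blk_inter hG (x := y) (y := x) (fun e => hne (by rw [e]))
  omega

theorem unique {W : Type*} [Fintype W] [DecidableEq W] {H : SimpleGraph W} [DecidableRel H.Adj]
    (hH : H.IsSRGWith 77 16 0 4) : Nonempty (G ≃g H) := by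
  classical
  obtain ⟨e, he⟩ := (Cfsg.Agent.Golay.model22 (points_card hG) (steiner hG)).iso
    (Cfsg.Agent.Golay.model22 (points_card hH) (steiner hH))
  have hex : ∀ x : V, ∃ y : W, blk y = (blk (G := G) x).image e := fun x => he.subset ⟨blk x, ⟨x, rfl⟩, rfl⟩
  choose f hf using hex
  have hinj : Function.Injective f := fun x y h => blk_injective hG (Finset.image_injective e.injective
    (show (blk (G := G) x).image e = (blk y).image e by rw [← hf x, ← hf y, h]))
  have hbij : Function.Bijective f :=
    (Fintype.bijective_iff_injective_and_card f).2 ⟨hinj, by rw [hG.card, hH.card]⟩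
  refine ⟨⟨Equiv.ofBijective f hbij, fun {x y} => ?_⟩⟩
  show H.Adj (f x) (f y) ↔ G.Adj x y
  rw [adj_iff hG, adj_iff hH, hf, hf, Finset.disjoint_image e.injective, hinj.ne_iff]

end Cfsg.Agent.TwoGroups.SrgSeventySeven
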