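import Mathlib

/-! Counting in a strongly regular graph with parameters (77, 16, 0, 4) around a fixed vertex. -/

set_option autoImplicit false
set_option linter.unusedSectionVars false

namespace Cfsg.Agent.TwoGroups.SrgSeventySeven

variable {V : Type*} [Fintype V] [DecidableEq V] {G : SimpleGraph V} [DecidableRel G.Adj]

/-- Adjacency as an integer. -/
def A (G : SimpleGraph V) [DecidableRel G.Adj] (a b : V) : ℤ := if G.Adj a b then 1 else 0

/-- `4I + 2J - 2A`. -/
def K (G : SimpleGraph V) [DecidableRel G.Adj] (a b : V) : ℤ :=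
  (if a = b then 4 else 0) + 2 - 2 * A G a b

/-- The neighbours of `o`. -/
def Nb (G : SimpleGraph V) [DecidableRel G.Adj] (o : V) : Finset V := Finset.univ.filter (G.Adj o)

/-- The vertices at distance two from `o`. -/
def Far (G : SimpleGraph V) [DecidableRel G.Adj] (o : V) : Finset V :=
  Finset.univ.filter fun z => z ≠ o ∧ ¬ G.Adj o z

/-- The number of neighbours of `o` joined to both. -/
def T (G : SimpleGraph V) [DecidableRel G.Adj] (o x y : V) : ℤ := ∑ n ∈ Nb G o, A G x n * A G y n

/-- The reduced inner product. -/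
def W (G : SimpleGraph V) [DecidableRel G.Adj] (o x y : V) : ℤ := K G x y - T G o x y

variable (hG : G.IsSRGWith 77 16 0 4)
include hG

theorem A_symm (a b : V) : A G a b = A G b a := by simp [A, G.adj_comm]

theorem A_self (a : V) : A G a a = 0 := by simp [A]

theorem K_symm (a b : V) : K G a b = K G b a := by simp only [K, A_symm hG a b, eq_comm (a := a)]

theorem A_mul (a b : V) (x : V) : A G a x * A G b x = if G.Adj a x ∧ G.Adj b x then 1 else 0 := by
  simp only [A]; split_ifs <;> simp_all

theorem sum_A (a : V) : ∑ x, A G a x = 16 := by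
  simp only [A]
  rw [Finset.sum_boole, ← G.neighborFinset_eq_filter, G.card_neighborFinset_eq_degree, hG.regular a]
  norm_num

theorem common {a b : V} : ∑ x, A G a x * A G b x =
    if a = b then 16 else if G.Adj a b then 0 else 4 := by
  simp only [A_mul hG a b]
  rw [Finset.sum_boole]
  split_ifs with h1 h2
  · subst h1
    simp only [and_self]
    rw [← G.neighborFinset_eq_filter, G.card_neighborFinset_eq_degree, hG.regular a]
    norm_num
  · have := hG.of_adj a b h2
    rw [← Set.toFinset_card] at this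
    norm_cast
    rw [← this]; congr 1; ext y; simp [SimpleGraph.mem_commonNeighbors]
  · have := hG.of_not_adj h1 h2
    rw [← Set.toFinset_card] at this
    norm_cast
    rw [← this]; congr 1; ext y; simp [SimpleGraph.mem_commonNeighbors]

theorem K_self (a : V) : K G a a = 6 := by simp [K, A]

theorem K_adj {a b : V} (h : G.Adj a b) : K G a b = 0 := by simp [K, A, h, h.ne]

theorem K_non {a b : V} (h : a ≠ b) (h' : ¬ G.Adj a b) : K G a b = 2 := by simp [K, A, h, h']

/-- The square of `K`. -/
theorem K_mul (a b : V) : ∑ c, K G a c * K G b c = 16 * K G a b + 180 := by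
  have e : ∀ c, K G a c * K G b c = (if a = c then 4 * K G b c else 0) + (if b = c then 8 - 8 * A G a c else 0) +
      (4 - 4 * A G a c - 4 * A G b c + 4 * (A G a c * A G b c)) := by
    intro c
    simp only [K]
    split_ifs <;> ring
  rw [Finset.sum_congr rfl fun c _ => e c, Finset.sum_add_distrib, Finset.sum_add_distrib, Finset.sum_add_distrib,
    Finset.sum_sub_distrib, Finset.sum_sub_distrib, Finset.sum_ite_eq, Finset.sum_ite_eq, if_pos (Finset.mem_univ _),
    if_pos (Finset.mem_univ _), ← Finset.mul_sum, ← Finset.mul_sum, ← Finset.mul_sum, sum_A hG, sum_A hG, common hG,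
    K_symm hG b a, Finset.sum_const, Finset.card_univ, hG.card]
  by_cases h1 : a = b
  · subst h1; rw [K_self hG, A_self hG, if_pos rfl]; norm_num
  · rw [if_neg h1]
    by_cases h2 : G.Adj a b
    · rw [K_adj hG h2, if_pos h2, A, if_pos h2]; norm_num
    · rw [K_non hG h1 h2, if_neg h2, A, if_neg h2]; norm_num

theorem sum_K (a : V) : ∑ c, K G a c = 126 := by
  simp only [K]
  rw [Finset.sum_sub_distrib, Finset.sum_add_distrib, Finset.sum_ite_eq, if_pos (Finset.mem_univ _), ← Finset.mul_sum,
    sum_A hG, Finset.sum_const, Finset.card_univ, hG.card]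
  norm_num

variable {o : V}

theorem mem_Nb {n : V} : n ∈ Nb G o ↔ G.Adj o n := by simp [Nb]

theorem mem_Far {z : V} : z ∈ Far G o ↔ z ≠ o ∧ ¬ G.Adj o z := by simp [Far]

theorem card_Nb : (Nb G o).card = 16 := by
  rw [Nb, ← G.neighborFinset_eq_filter, G.card_neighborFinset_eq_degree, hG.regular o]

/-- Splitting a sum at `o`. -/
theorem split_sum (f : V → ℤ) : ∑ z, f z = f o + ∑ n ∈ Nb G o, f n + ∑ z ∈ Far G o, f z := by
  have e : (Finset.univ : Finset V).erase o = Nb G o ∪ Far G o := by
    ext z
    simp only [Finset.mem_erase, Finset.mem_univ, and_true, Finset.mem_union, mem_Nb hG, mem_Far hG]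
    exact ⟨fun h => (em (G.Adj o z)).imp id (fun h' => ⟨h, h'⟩),
      fun h => h.elim (fun h e => G.irrefl (e ▸ h)) (fun h => h.1)⟩
  have hd : Disjoint (Nb G o) (Far G o) := Finset.disjoint_left.2 fun z h1 h2 =>
    ((mem_Far hG).1 h2).2 ((mem_Nb hG).1 h1)
  rw [← Finset.add_sum_erase _ f (Finset.mem_univ o), e, Finset.sum_union hd, add_assoc]

theorem no_tri {p q r : V} (h1 : G.Adj p q) (h2 : G.Adj p r) : ¬ G.Adj q r := fun h3 => by
  have h := hG.of_adj p q h1
  rw [← Set.toFinset_card, Finset.card_eq_zero, Set.toFinset_eq_empty] at h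
  exact absurd (show r ∈ G.commonNeighbors p q from ⟨h2, h3⟩) (h ▸ Set.notMem_empty r)

theorem card_Far : (Far G o).card = 60 := by
  have h := split_sum hG (o := o) (fun _ => (1 : ℤ))
  simp only [Finset.sum_const, Finset.card_univ, hG.card, card_Nb hG, nsmul_eq_mul, mul_one] at h
  norm_num at h
  omega

theorem sum_A_far {x : V} (hx : x ∈ Far G o) : ∑ n ∈ Nb G o, A G x n = 4 := by
  obtain ⟨h1, h2⟩ := (mem_Far hG).1 hx
  have h := common hG (a := o) (b := x)
  rw [if_neg h1.symm, if_neg h2] at h
  rw [← h, Nb, Finset.sum_filter]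
  refine Finset.sum_congr rfl fun n _ => ?_
  simp only [A]; split_ifs <;> simp_all

theorem AA_far {n m : V} (hn : n ∈ Nb G o) (hm : m ∈ Nb G o) :
    ∑ z ∈ Far G o, A G z n * A G z m = 3 + if n = m then 12 else 0 := by
  have hn' := (mem_Nb hG).1 hn
  have hm' := (mem_Nb hG).1 hm
  have h := split_sum hG (o := o) (fun z => A G z n * A G z m)
  have e0 : ∑ z ∈ Nb G o, A G z n * A G z m = 0 := Finset.sum_eq_zero fun z hz => by
    rw [show A G z n = 0 by simp [A, no_tri hG ((mem_Nb hG).1 hz) hn'], zero_mul]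
  have e1 : A G o n = 1 := by simp [A, hn']
  have e2 : A G o m = 1 := by simp [A, hm']
  have h' := common hG (a := n) (b := m)
  simp only [A_symm hG n, A_symm hG m] at h'
  rw [h', e0, e1, e2] at h
  rw [if_neg (fun h'' : G.Adj n m => no_tri hG hn' hm' h'')] at h
  split_ifs at h ⊢ <;> omega

theorem KA_far {x n : V} (hx : x ∈ Far G o) (hn : n ∈ Nb G o) :
    ∑ z ∈ Far G o, K G x z * A G n z = 22 + 12 * A G x n := by
  obtain ⟨hx1, hx2⟩ := (mem_Far hG).1 hx
  have hn' := (mem_Nb hG).1 hn
  have h := split_sum hG (o := o) (fun z => K G x z * A G n z)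
  have e0 : ∑ z ∈ Nb G o, K G x z * A G n z = 0 := Finset.sum_eq_zero fun z hz => by
    rw [show A G n z = 0 by simp [A, no_tri hG hn' ((mem_Nb hG).1 hz)], mul_zero]
  have e1 : A G n o = 1 := by simp [A, hn'.symm]
  have etot : ∑ z, K G x z * A G n z = 4 * A G n x + 32 - 2 * ∑ z, A G x z * A G n z := by
    have : ∀ z, K G x z * A G n z = (if x = z then 4 * A G n z else 0) + 2 * A G n z - 2 * (A G x z * A G n z) := by
      intro z; simp only [K]; split_ifs <;> ring
    rw [Finset.sum_congr rfl fun z _ => this z, Finset.sum_sub_distrib, Finset.sum_add_distrib, Finset.sum_ite_eq,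
      if_pos (Finset.mem_univ _), ← Finset.mul_sum, ← Finset.mul_sum, sum_A hG]
    norm_num
  rw [etot, e0, e1, K_non hG hx1 (fun h => hx2 h.symm), common hG, if_neg (show x ≠ n from fun e => hx2 (e ▸ hn'))] at h
  rw [A_symm hG x n]
  by_cases hxn : G.Adj x n
  · rw [if_pos hxn] at h
    rw [show A G n x = 1 by simp [A, hxn.symm]] at h ⊢
    linarith
  · rw [if_neg hxn] at h
    rw [show A G n x = 0 by simp [A, G.adj_comm n x, hxn]] at h ⊢
    linarith

theorem K_Nb {x n : V} (hx : x ∈ Far G o) (hn : n ∈ Nb G o) : K G x n = 2 - 2 * A G x n := by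
  simp only [K]
  rw [if_neg (fun e : x = n => ((mem_Far hG).1 hx).2 (e ▸ (mem_Nb hG).1 hn)), zero_add]

/-- The reduced inner products multiply like a scaled idempotent. -/
theorem W_mul {x y : V} (hx : x ∈ Far G o) (hy : y ∈ Far G o) :
    ∑ z ∈ Far G o, W G o x z * W G o y z = 16 * W G o x y + 16 := by
  have hxo := (mem_Far hG).1 hx
  have hyo := (mem_Far hG).1 hy
  have hKK : ∑ z ∈ Far G o, K G x z * K G y z = 16 * K G x y + 144 - 4 * T G o x y := by
    have h := split_sum hG (o := o) (fun z => K G x z * K G y z)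
    have e : ∑ n ∈ Nb G o, K G x n * K G y n = 32 + 4 * T G o x y := by
      have : ∀ n ∈ Nb G o, K G x n * K G y n = 4 - 4 * A G x n - 4 * A G y n + 4 * (A G x n * A G y n) := by
        intro n hn; rw [K_Nb hG hx hn, K_Nb hG hy hn]; ring
      rw [Finset.sum_congr rfl this, Finset.sum_add_distrib, Finset.sum_sub_distrib, Finset.sum_sub_distrib,
        ← Finset.mul_sum, ← Finset.mul_sum, ← Finset.mul_sum, sum_A_far hG hx, sum_A_far hG hy, Finset.sum_const,
        card_Nb hG, T]
      norm_num
    rw [K_mul hG, e, K_non hG hxo.1 (fun h => hxo.2 h.symm), K_non hG hyo.1 (fun h => hyo.2 h.symm)] at h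
    linarith
  have hKT : ∀ {u v : V}, u ∈ Far G o → v ∈ Far G o →
      ∑ z ∈ Far G o, K G u z * T G o v z = 88 + 12 * T G o u v := by
    intro u v hu hv
    simp only [T, Finset.mul_sum]
    rw [Finset.sum_comm]
    have : ∀ n ∈ Nb G o, ∑ z ∈ Far G o, K G u z * (A G v n * A G z n) = 22 * A G v n + 12 * (A G u n * A G v n) := by
      intro n hn
      have := KA_far hG hu hn
      calc ∑ z ∈ Far G o, K G u z * (A G v n * A G z n)
          = A G v n * ∑ z ∈ Far G o, K G u z * A G n z := by
            rw [Finset.mul_sum]; exact Finset.sum_congr rfl fun z _ => by rw [A_symm hG z n]; ring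
        _ = _ := by rw [this]; ring
    rw [Finset.sum_congr rfl this, Finset.sum_add_distrib, ← Finset.mul_sum, ← Finset.mul_sum, sum_A_far hG hv]
    rw [Finset.mul_sum]; norm_num [Finset.mul_sum]
  have hTT : ∑ z ∈ Far G o, T G o x z * T G o y z = 48 + 12 * T G o x y := by
    rw [show T G o x y = ∑ n ∈ Nb G o, A G x n * A G y n from rfl]
    simp only [T]
    rw [Finset.sum_congr rfl fun z _ => Finset.sum_mul_sum _ _ _ _, Finset.sum_comm]
    have : ∀ n ∈ Nb G o, ∑ z ∈ Far G o, ∑ m ∈ Nb G o, A G x n * A G z n * (A G y m * A G z m) =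
        12 * A G x n + 12 * (A G x n * A G y n) := by
      intro n hn
      rw [Finset.sum_comm]
      calc ∑ m ∈ Nb G o, ∑ z ∈ Far G o, A G x n * A G z n * (A G y m * A G z m)
          = ∑ m ∈ Nb G o, A G x n * A G y m * (3 + if n = m then 12 else 0) := by
            refine Finset.sum_congr rfl fun m hm => ?_
            rw [← AA_far hG hn hm, Finset.mul_sum]
            exact Finset.sum_congr rfl fun z _ => by ring
        _ = _ := by
            simp only [mul_add, mul_ite, mul_zero, Finset.sum_add_distrib, Finset.sum_ite_eq, if_pos hn]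
            rw [← Finset.sum_mul, ← Finset.mul_sum, sum_A_far hG hy]
            ring
    rw [Finset.sum_congr rfl this, Finset.sum_add_distrib, ← Finset.mul_sum, sum_A_far hG hx]
    rw [Finset.mul_sum]; norm_num [Finset.mul_sum]
  simp only [W, sub_mul, mul_sub, Finset.sum_sub_distrib]
  rw [hKK, hTT, hKT hx hy, show ∑ z ∈ Far G o, T G o x z * K G y z = ∑ z ∈ Far G o, K G y z * T G o x z from
    Finset.sum_congr rfl fun z _ => mul_comm _ _, hKT hy hx, show T G o y x = T G o x y from
    Finset.sum_congr rfl fun n _ => mul_comm _ _]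
  ring

theorem W_sum {x : V} (hx : x ∈ Far G o) : ∑ z ∈ Far G o, W G o x z = 40 := by
  have hxo := (mem_Far hG).1 hx
  have hK : ∑ z ∈ Far G o, K G x z = 100 := by
    have h := split_sum hG (o := o) (fun z => K G x z)
    have e : ∑ n ∈ Nb G o, K G x n = 24 := by
      rw [Finset.sum_congr rfl fun n hn => K_Nb hG hx hn, Finset.sum_sub_distrib, ← Finset.mul_sum, sum_A_far hG hx,
        Finset.sum_const, card_Nb hG]
      norm_num
    rw [sum_K hG, e, K_non hG hxo.1 (fun h => hxo.2 h.symm)] at h
    linarith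
  have hT : ∑ z ∈ Far G o, T G o x z = 60 := by
    simp only [T]
    rw [Finset.sum_comm]
    have : ∀ n ∈ Nb G o, ∑ z ∈ Far G o, A G x n * A G z n = 15 * A G x n := by
      intro n hn
      have h := AA_far hG hn hn
      rw [if_pos rfl] at h
      rw [← Finset.mul_sum, show ∑ z ∈ Far G o, A G z n = 15 from ?_, mul_comm]
      refine Eq.trans (Finset.sum_congr rfl fun z _ => ?_) (h.trans (by norm_num))
      simp only [A]; split_ifs <;> simp
    rw [Finset.sum_congr rfl this, ← Finset.mul_sum, sum_A_far hG hx]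
    norm_num
  simp only [W, Finset.sum_sub_distrib, hK, hT]
  norm_num

theorem W_symm (x y : V) : W G o x y = W G o y x := by
  simp only [W, K_symm hG x y]
  congr 1
  exact Finset.sum_congr rfl fun n _ => mul_comm _ _

theorem W_self {x : V} (hx : x ∈ Far G o) : W G o x x = 2 := by
  rw [W, K_self hG, T, show (∑ n ∈ Nb G o, A G x n * A G x n) = ∑ n ∈ Nb G o, A G x n from
    Finset.sum_congr rfl fun n _ => by simp only [A]; split_ifs <;> simp, sum_A_far hG hx]
  norm_num

theorem W_adj {x y : V} (h : G.Adj x y) : W G o x y = 0 := by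
  rw [W, K_adj hG h, T, Finset.sum_eq_zero fun n _ => ?_, sub_zero]
  simp only [A]
  split_ifs with h1 h2 <;> try simp
  exact absurd h2 (no_tri hG h h1 |> fun hh => fun h' => hh h')

theorem W_range {x y : V} (hx : x ∈ Far G o) (hy : y ∈ Far G o) :
    (W G o x y = 0 ∨ W G o x y = 1 ∨ W G o x y = 2) ∧
      (W G o x y = 2 → ∀ z ∈ Far G o, W G o x z = W G o y z) := by
  have h1 : ∑ z ∈ Far G o, (W G o x z - W G o y z) ^ 2 = 64 - 32 * W G o x y := by
    have e : ∀ z, (W G o x z - W G o y z) ^ 2 =
        W G o x z * W G o x z + W G o y z * W G o y z - 2 * (W G o x z * W G o y z) := fun z => by ring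
    rw [Finset.sum_congr rfl fun z _ => e z, Finset.sum_sub_distrib, Finset.sum_add_distrib, ← Finset.mul_sum,
      W_mul hG hx hx, W_mul hG hy hy, W_mul hG hx hy, W_self hG hx, W_self hG hy]
    ring
  have h2 : ∑ z ∈ Far G o, (3 * W G o x z + 3 * W G o y z - 4) ^ 2 = 192 + 288 * W G o x y := by
    have e : ∀ z, (3 * W G o x z + 3 * W G o y z - 4) ^ 2 = 9 * (W G o x z * W G o x z) +
        9 * (W G o y z * W G o y z) + 18 * (W G o x z * W G o y z) - 24 * W G o x z - 24 * W G o y z + 16 :=
      fun z => by ring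
    rw [Finset.sum_congr rfl fun z _ => e z, Finset.sum_add_distrib, Finset.sum_sub_distrib, Finset.sum_sub_distrib,
      Finset.sum_add_distrib, Finset.sum_add_distrib, ← Finset.mul_sum, ← Finset.mul_sum, ← Finset.mul_sum,
      ← Finset.mul_sum, ← Finset.mul_sum, W_mul hG hx hx, W_mul hG hy hy, W_mul hG hx hy, W_self hG hx,
      W_self hG hy, W_sum hG hx, W_sum hG hy, Finset.sum_const, card_Far hG]
    ring
  have n1 : (0 : ℤ) ≤ 64 - 32 * W G o x y := h1 ▸ Finset.sum_nonneg fun z _ => sq_nonneg _
  have n2 : (0 : ℤ) ≤ 192 + 288 * W G o x y := h2 ▸ Finset.sum_nonneg fun z _ => sq_nonneg _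
  refine ⟨by omega, fun h z hz => ?_⟩
  rw [h] at h1
  have := (Finset.sum_eq_zero_iff_of_nonneg fun z _ => sq_nonneg _).1 (h1.trans (by norm_num)) z hz
  rw [pow_eq_zero_iff two_ne_zero] at this
  linarith

end Cfsg.Agent.TwoGroups.SrgSeventySeven
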