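import Cfsg.Agent.TwoGroups.SrgSeventySeven.Local
import Cfsg.Agent.TwoGroups.SrgSeventySeven.Counts

/-! The cocliques of size 21 through a vertex. -/

set_option autoImplicit false
set_option linter.unusedSectionVars false

namespace Cfsg.Agent.TwoGroups.SrgSeventySeven

variable {V : Type*} [Fintype V] [DecidableEq V] (G : SimpleGraph V) [DecidableRel G.Adj]

/-- The cocliques of size 21. -/
def Co : Finset (Finset V) :=
  (Finset.univ : Finset (Finset V)).filter fun C => C.card = 21 ∧ ∀ x ∈ C, ∀ y ∈ C, ¬ G.Adj x y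

variable {G}

theorem mem_Co {C : Finset V} : C ∈ Co G ↔ C.card = 21 ∧ ∀ x ∈ C, ∀ y ∈ C, ¬ G.Adj x y := by simp [Co]

variable (hG : G.IsSRGWith 77 16 0 4)
include hG

/-- Equality in the coclique bound: an outer vertex is joined to six members. -/
theorem co_out {C : Finset V} (hC : C ∈ Co G) {z : V} (hz : z ∉ C) : ∑ c ∈ C, A G z c = 6 := by
  obtain ⟨h21, hind⟩ := mem_Co.1 hC
  set v : V → ℤ := fun z => ∑ c ∈ C, K G z c with hv
  have hin : ∀ a ∈ C, v a = 46 := by
    intro a ha
    simp only [hv]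
    rw [← Finset.add_sum_erase _ _ ha, K_self hG, Finset.sum_congr rfl fun c hc => K_non hG
      (Finset.ne_of_mem_erase hc).symm (hind a ha c (Finset.mem_of_mem_erase hc)), Finset.sum_const,
      Finset.card_erase_of_mem ha, h21]
    norm_num
  have hout : ∀ a, a ∉ C → v a = 42 - 2 * ∑ c ∈ C, A G a c := by
    intro a ha
    simp only [hv]
    have : ∀ c ∈ C, K G a c = 2 - 2 * A G a c := fun c hc => by
      simp only [K]; rw [if_neg (fun e : a = c => ha (e ▸ hc)), zero_add]
    rw [Finset.sum_congr rfl this, Finset.sum_sub_distrib, ← Finset.mul_sum, Finset.sum_const, h21]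
    norm_num
  have htot2 : ∑ a, v a ^ 2 = 94836 := by
    have e : ∀ a, v a ^ 2 = ∑ c ∈ C, ∑ d ∈ C, K G c a * K G d a := fun a => by
      simp only [hv, sq, Finset.sum_mul_sum, K_symm hG a]
    rw [Finset.sum_congr rfl fun a _ => e a, Finset.sum_comm]
    have e2 : ∀ c ∈ C, ∑ a, ∑ d ∈ C, K G c a * K G d a = 16 * v c + 180 * 21 := fun c hc => by
      rw [Finset.sum_comm, Finset.sum_congr rfl fun d _ => K_mul hG c d, Finset.sum_add_distrib, ← Finset.mul_sum,
        Finset.sum_const, h21]
      simp [hv]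
    rw [Finset.sum_congr rfl e2, Finset.sum_add_distrib, ← Finset.mul_sum, Finset.sum_congr rfl hin,
      Finset.sum_const, Finset.sum_const, h21]
    norm_num
  have htot1 : ∑ a, v a = 2646 := by
    simp only [hv]
    rw [Finset.sum_comm, Finset.sum_congr rfl fun c _ => (Finset.sum_congr rfl fun a _ => K_symm hG a c).trans
      (sum_K hG c), Finset.sum_const, h21]
    norm_num
  set O := Finset.univ \ C with hO
  have hOc : O.card = 56 := by
    rw [hO, Finset.card_sdiff_of_subset (Finset.subset_univ C), Finset.card_univ, hG.card, h21]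
  have s2 : ∑ a ∈ O, v a ^ 2 = 50400 := by
    have := Finset.sum_sdiff (f := fun a => v a ^ 2) (Finset.subset_univ C)
    rw [htot2, show ∑ a ∈ C, v a ^ 2 = ∑ a ∈ C, (46 : ℤ) ^ 2 from Finset.sum_congr rfl fun a ha => by rw [hin a ha],
      Finset.sum_const (b := (46 : ℤ) ^ 2), h21] at this
    rw [hO]; simp only [nsmul_eq_mul, Nat.cast_ofNat] at this; norm_num1 at this; linarith
  have s1 : ∑ a ∈ O, v a = 1680 := by
    have := Finset.sum_sdiff (f := fun a => v a) (Finset.subset_univ C)
    rw [htot1, show ∑ a ∈ C, v a = ∑ a ∈ C, (46 : ℤ) from Finset.sum_congr rfl hin,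
      Finset.sum_const (b := (46 : ℤ)), h21] at this
    rw [hO]; simp only [nsmul_eq_mul, Nat.cast_ofNat] at this; norm_num1 at this; linarith
  have hzero : ∑ a ∈ O, (v a - 30) ^ 2 = 0 := by
    have e : ∀ a, (v a - 30) ^ 2 = v a ^ 2 - 60 * v a + 900 := fun a => by ring
    rw [Finset.sum_congr rfl fun a _ => e a, Finset.sum_add_distrib, Finset.sum_sub_distrib, ← Finset.mul_sum, s2, s1,
      Finset.sum_const, hOc]
    norm_num
  have := (Finset.sum_eq_zero_iff_of_nonneg fun a _ => sq_nonneg _).1 hzero z (by simp [hO, hz])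
  rw [pow_eq_zero_iff two_ne_zero, hout z hz] at this
  linarith

variable (o : V)

/-- The class of `x`. -/
def cls (x : V) : Finset V := have _ := hG; (Far G o).filter fun z => W G o x z = 2

variable {o}

theorem mem_cls {x z : V} : z ∈ cls hG o x ↔ z ∈ Far G o ∧ W G o x z = 2 := by simp [cls]

theorem cls_self {x : V} (hx : x ∈ Far G o) : x ∈ cls hG o x := (mem_cls hG).2 ⟨hx, W_self hG hx⟩

theorem cls_eq_iff {x y : V} (hx : x ∈ Far G o) (hy : y ∈ Far G o) : cls hG o x = cls hG o y ↔ W G o x y = 2 := by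
  constructor
  · intro h
    exact ((mem_cls hG).1 (h ▸ cls_self hG hy : y ∈ cls hG o x)).2
  · intro h
    ext z
    rw [mem_cls hG, mem_cls hG]
    exact and_congr_right fun hz => by rw [(W_range hG hx hy).2 h z hz]

theorem cls_card {x : V} (hx : x ∈ Far G o) : (cls hG o x).card = 4 := by
  have e : ∀ z ∈ Far G o, W G o x z * W G o x z - W G o x z = if W G o x z = 2 then 2 else 0 := fun z hz => by
    rcases (W_range hG hx hz).1 with h | h | h <;> rw [h] <;> norm_num
  have := Finset.sum_congr rfl e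
  rw [Finset.sum_sub_distrib, W_mul hG hx hx, W_self hG hx, W_sum hG hx, ← Finset.sum_filter, Finset.sum_const,
    nsmul_eq_mul] at this
  have h' : (cls hG o x).card = ((Far G o).filter fun z => W G o x z = 2).card := rfl
  omega

variable (o)

/-- The classes. -/
def Cls : Finset (Finset V) := (Far G o).image (cls hG o)

/-- The classes as a type. -/
abbrev Beta : Type _ := {c : Finset V // c ∈ Cls hG o}

/-- Classes with nothing in common. -/
def Dr (a b : Beta hG o) : Prop := ∃ x ∈ a.1, ∃ y ∈ b.1, W G o x y = 0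

instance : DecidableRel (Dr hG o) := fun a b => by unfold Dr; infer_instance

variable {o}

theorem rep (a : Beta hG o) : ∃ x ∈ Far G o, a.1 = cls hG o x := by
  obtain ⟨x, hx, e⟩ := Finset.mem_image.1 a.2
  exact ⟨x, hx, e.symm⟩

theorem dr_iff {a b : Beta hG o} {x y : V} (hx : x ∈ Far G o) (hy : y ∈ Far G o) (ha : a.1 = cls hG o x)
    (hb : b.1 = cls hG o y) : Dr hG o a b ↔ W G o x y = 0 := by
  refine ⟨?_, fun h => ⟨x, ha ▸ cls_self hG hx, y, hb ▸ cls_self hG hy, h⟩⟩
  rintro ⟨x', hx', y', hy', h⟩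
  rw [ha, mem_cls hG] at hx'
  rw [hb, mem_cls hG] at hy'
  rw [(W_range hG hx hx'.1).2 hx'.2 y hy, W_symm hG, (W_range hG hy hy'.1).2 hy'.2 x' hx'.1, W_symm hG, h]

theorem sum_classes (f : Beta hG o → ℤ) (g : V → ℤ)
    (hfg : ∀ (a : Beta hG o) (x : V), x ∈ Far G o → a.1 = cls hG o x → g x = f a) :
    ∑ x ∈ Far G o, g x = 4 * ∑ a, f a := by
  have h := Finset.sum_fiberwise_of_maps_to (s := Far G o) (t := Cls hG o) (g := cls hG o)
    (fun x hx => Finset.mem_image_of_mem _ hx) g
  rw [← h, ← Finset.sum_coe_sort (Cls hG o), Finset.mul_sum]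
  refine Finset.sum_congr rfl fun a _ => ?_
  obtain ⟨x, hx, ha⟩ := rep hG a
  have e : (Far G o).filter (fun z => cls hG o z = a.1) = a.1 := by
    ext z
    rw [Finset.mem_filter, ha, mem_cls hG]
    exact and_congr_right fun hz => by rw [cls_eq_iff hG hz hx, W_symm hG]
  rw [e, Finset.sum_congr rfl (g := fun _ => f a) fun z hz => hfg a z (by
      rw [ha, mem_cls hG] at hz; exact hz.1) (by
      rw [ha, mem_cls hG] at hz; rw [ha, cls_eq_iff hG hx hz.1, hz.2]),
    Finset.sum_const, show a.1.card = 4 from ha ▸ cls_card hG hx, nsmul_eq_mul]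
  norm_num

theorem gq (o : V) : GQ (Dr hG o) := by
  have hsymm : ∀ a b, Dr hG o a b → Dr hG o b a := by
    rintro a b ⟨x, hx, y, hy, h⟩
    exact ⟨y, hy, x, hx, by rw [W_symm hG, h]⟩
  have hirr : ∀ a, ¬ Dr hG o a a := fun a h => by
    obtain ⟨x, hx, ha⟩ := rep hG a
    rw [dr_iff hG hx hx ha ha, W_self hG hx] at h
    norm_num at h
  have hw : ∀ {x z : V}, x ∈ Far G o → z ∈ Far G o → ((if W G o x z = 0 then 2 else 0 : ℤ)) =
      W G o x z * W G o x z - 3 * W G o x z + 2 := fun hx hz => by
    rcases (W_range hG hx hz).1 with h | h | h <;> rw [h] <;> norm_num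
  refine ⟨?_, hsymm, hirr, fun a => ?_, fun a b hab => ?_, fun a b hne hab => ?_⟩
  · have h := sum_classes hG (o := o) (fun _ => (1 : ℤ)) (fun _ => 1) (fun _ _ _ _ => rfl)
    simp only [Finset.sum_const, card_Far hG, Finset.card_univ, nsmul_eq_mul, mul_one] at h
    omega
  · obtain ⟨x, hx, ha⟩ := rep hG a
    have h := sum_classes hG (o := o) (fun c => if Dr hG o a c then (2 : ℤ) else 0)
      (fun z => if W G o x z = 0 then 2 else 0) (fun c z hz hc => by simp only [dr_iff hG hx hz ha hc])
    rw [Finset.sum_congr rfl fun z hz => hw hx hz, Finset.sum_add_distrib, Finset.sum_sub_distrib, ← Finset.mul_sum,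
      W_mul hG hx hx, W_self hG hx, W_sum hG hx, Finset.sum_const, card_Far hG, ← Finset.sum_filter, Finset.sum_const,
      nsmul_eq_mul, nsmul_eq_mul] at h
    show (nb (Dr hG o) a).card = 6
    simp only [nb]
    rw [show Finset.univ.filter (Dr hG o a) = Finset.univ.filter (fun c => Dr hG o a c) from Finset.ext fun c => by simp]
    omega
  all_goals
    obtain ⟨x, hx, ha⟩ := rep hG a
    obtain ⟨y, hy, hb⟩ := rep hG b
    have hxy : W G o x y = 0 ∨ W G o x y = 1 := by
      rcases (W_range hG hx hy).1 with h | h | h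
      · exact Or.inl h
      · exact Or.inr h
      · exfalso
        have e : a = b := Subtype.ext (by rw [ha, hb, (cls_eq_iff hG hx hy).2 h])
        first | exact hne e | exact hirr a (e ▸ hab)
    have hp : ∀ z ∈ Far G o, ((if W G o x z = 0 ∧ W G o y z = 0 then 1 else 0 : ℤ)) =
        1 - W G o x z - W G o y z + W G o x z * W G o y z + (if W G o x z = 2 then 1 - W G o x y else 0) +
          (if W G o y z = 2 then 1 - W G o x y else 0) := by
      intro z hz
      have r1 := (W_range hG hx hz).1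
      have r2 := (W_range hG hy hz).1
      have c1 : W G o x z = 2 → W G o y z = W G o x y := fun h => by
        rw [W_symm hG y z, ← (W_range hG hx hz).2 h y hy]
      have c2 : W G o y z = 2 → W G o x z = W G o x y := fun h => by
        rw [W_symm hG x z, W_symm hG x y, ← (W_range hG hy hz).2 h x hx]
      rcases r1 with h1 | h1 | h1 <;> rcases r2 with h2 | h2 | h2
      all_goals (try have := c1 h1)
      all_goals (try have := c2 h2)
      all_goals (simp only [h1, h2] at *)
      all_goals (norm_num)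
      all_goals omega
    have h := sum_classes hG (o := o) (fun c => if Dr hG o a c ∧ Dr hG o b c then (1 : ℤ) else 0)
      (fun z => if W G o x z = 0 ∧ W G o y z = 0 then 1 else 0)
      (fun c z hz hc => by simp only [dr_iff hG hx hz ha hc, dr_iff hG hy hz hb hc])
    have hc1 : ((Far G o).filter fun z => W G o x z = 2).card = 4 := cls_card hG hx
    have hc2 : ((Far G o).filter fun z => W G o y z = 2).card = 4 := cls_card hG hy
    rw [Finset.sum_congr rfl hp, Finset.sum_add_distrib, Finset.sum_add_distrib, Finset.sum_add_distrib,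
      Finset.sum_sub_distrib, Finset.sum_sub_distrib, Finset.sum_const, card_Far hG, W_sum hG hx, W_sum hG hy,
      W_mul hG hx hy, ← Finset.sum_filter, ← Finset.sum_filter, Finset.sum_const, Finset.sum_const, hc1, hc2,
      Finset.sum_boole] at h
    have e : nb (Dr hG o) a ∩ nb (Dr hG o) b = Finset.univ.filter fun c => Dr hG o a c ∧ Dr hG o b c := by
      ext c; simp [nb]
    rw [e]
    simp only [nsmul_eq_mul] at h
    have hD : Dr hG o a b ↔ W G o x y = 0 := dr_iff hG hx hy ha hb
    rcases hxy with hw' | hw' <;> rw [hw'] at h <;>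
      first | (norm_num at h ⊢; omega) | exact absurd (hD.1 hab) (by omega) | exact absurd (hD.2 hw') hab

/-- The coclique of a free set of classes. -/
def coOf (S : Finset (Beta hG o)) : Finset V := insert o (S.biUnion fun a => a.1)

theorem cocliques_at (o : V) : ∃ Φ : Finset (Finset (Beta hG o)), Φ.card = 6 ∧
    (∀ a, (Φ.filter fun S => a ∈ S).card = 2) ∧
    (Co G).filter (fun C => o ∈ C) = Φ.image (coOf hG) ∧
    ((Co G).filter fun C => o ∈ C).card = 6 := by
  classical
  obtain ⟨Φ, h6, hΦ, h5, h2, hint⟩ := (gq hG o).six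
  have hsub : ∀ (a : Beta hG o), a.1 ⊆ Far G o := fun a z hz => by
    obtain ⟨x, hx, ha⟩ := rep hG a
    rw [ha, mem_cls hG] at hz; exact hz.1
  have hdis : ∀ a b : Beta hG o, a ≠ b → Disjoint a.1 b.1 := fun a b hne => Finset.disjoint_left.2 fun z h1 h2 => by
    obtain ⟨x, hx, ha⟩ := rep hG a
    obtain ⟨y, hy, hb⟩ := rep hG b
    rw [ha, mem_cls hG] at h1
    rw [hb, mem_cls hG] at h2
    exact hne (Subtype.ext (by rw [ha, hb, (cls_eq_iff hG hx h1.1).2 h1.2, (cls_eq_iff hG hy h1.1).2 h2.2]))
  have hcard : ∀ S : Finset (Beta hG o), (coOf hG S).card = 1 + 4 * S.card := fun S => by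
    rw [coOf, Finset.card_insert_of_notMem, Finset.card_biUnion fun a _ b _ h => hdis a b h,
      Finset.sum_congr rfl fun a _ => by
        obtain ⟨x, hx, ha⟩ := rep hG a
        rw [ha, cls_card hG hx], Finset.sum_const, smul_eq_mul]
    · ring
    · rw [Finset.mem_biUnion]
      rintro ⟨a, -, ha⟩
      exact ((mem_Far hG).1 (hsub a ha)).1 rfl
  have hrec : ∀ (S : Finset (Beta hG o)) (a : Beta hG o), a ∈ S ↔ a.1 ⊆ coOf hG S := by
    intro S a
    refine ⟨fun h => fun z hz => Finset.mem_insert_of_mem (Finset.mem_biUnion.2 ⟨a, h, hz⟩), fun h => ?_⟩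
    obtain ⟨x, hx, ha⟩ := rep hG a
    have hxa : x ∈ a.1 := ha ▸ cls_self hG hx
    rcases Finset.mem_insert.1 (h hxa) with e | e
    · exact absurd e ((mem_Far hG).1 hx).1
    · obtain ⟨b, hb, hxb⟩ := Finset.mem_biUnion.1 e
      by_contra hn
      exact Finset.disjoint_left.1 (hdis a b fun e => hn (e ▸ hb)) hxa hxb
  have hinj : Function.Injective (coOf hG (o := o)) := fun S T e => by
    ext a; rw [hrec S, hrec T, e]
  have himg : (Co G).filter (fun C => o ∈ C) = Φ.image (coOf hG) := by
    ext C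
    rw [Finset.mem_filter, Finset.mem_image]
    constructor
    · rintro ⟨hC, hoC⟩
      obtain ⟨h21, hind⟩ := mem_Co.1 hC
      set S0 := C.erase o with hS0
      have hS0c : S0.card = 20 := by rw [hS0, Finset.card_erase_of_mem hoC, h21]
      have hS0F : S0 ⊆ Far G o := fun z hz => by
        rw [hS0, Finset.mem_erase] at hz
        exact (mem_Far hG).2 ⟨hz.1, hind o hoC z hz.2⟩
      have hn5 : ∀ n ∈ Nb G o, ∑ s ∈ S0, A G n s = 5 := fun n hn => by
        have hn' := (mem_Nb hG).1 hn
        have h := co_out hG hC (z := n) (fun h => hind o hoC n h hn')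
        rw [← Finset.add_sum_erase _ _ hoC, show A G n o = 1 by simp [A, hn'.symm], ← hS0] at h
        linarith
      have hT : ∀ z ∈ Far G o, ∑ s ∈ S0, T G o z s = 20 := fun z hz => by
        simp only [T]
        rw [Finset.sum_comm]
        have : ∀ n ∈ Nb G o, ∑ s ∈ S0, A G z n * A G s n = 5 * A G z n := fun n hn => by
          rw [← Finset.mul_sum, Finset.sum_congr rfl fun s _ => A_symm hG s n, hn5 n hn, mul_comm]
        rw [Finset.sum_congr rfl this, ← Finset.mul_sum, sum_A_far hG hz]
        norm_num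
      have hWin : ∀ z ∈ S0, ∑ s ∈ S0, W G o z s = 24 := fun z hz => by
        have hzC := (Finset.mem_erase.1 hz).2
        simp only [W, Finset.sum_sub_distrib]
        rw [hT z (hS0F hz), ← Finset.add_sum_erase _ _ hz, K_self hG, Finset.sum_congr rfl fun s hs => K_non hG
          (Finset.ne_of_mem_erase hs).symm (hind z hzC s (Finset.mem_erase.1 (Finset.mem_of_mem_erase hs)).2),
          Finset.sum_const, Finset.card_erase_of_mem hz, hS0c]
        norm_num
      have hWout : ∀ z ∈ Far G o, z ∉ S0 → ∑ s ∈ S0, W G o z s = 8 := fun z hz hz' => by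
        have hzC : z ∉ C := fun h => hz' (Finset.mem_erase.2 ⟨((mem_Far hG).1 hz).1, h⟩)
        have h := co_out hG hC hzC
        rw [← Finset.add_sum_erase _ _ hoC, show A G z o = 0 by
          simp [A, G.adj_comm z o, ((mem_Far hG).1 hz).2], ← hS0] at h
        simp only [W, Finset.sum_sub_distrib]
        have : ∀ s ∈ S0, K G z s = 2 - 2 * A G z s := fun s hs => by
          simp only [K]; rw [if_neg (fun e : z = s => hz' (e ▸ hs)), zero_add]
        rw [hT z hz, Finset.sum_congr rfl this, Finset.sum_sub_distrib, ← Finset.mul_sum, Finset.sum_const, hS0c]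
        norm_num
        linarith
      have hunion : ∀ z ∈ S0, cls hG o z ⊆ S0 := fun z hz w hw => by
        rw [mem_cls hG] at hw
        by_contra hwS
        have h1 := hWin z hz
        rw [Finset.sum_congr rfl fun s hs => (W_range hG (hS0F hz) hw.1).2 hw.2 s (hS0F hs),
          hWout w hw.1 hwS] at h1
        norm_num at h1
      set S := (Finset.univ : Finset (Beta hG o)).filter fun a => a.1 ⊆ S0 with hS
      have hco : coOf hG S = C := by
        rw [coOf, ← Finset.insert_erase hoC, ← hS0]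
        congr 1
        ext z
        rw [Finset.mem_biUnion]
        constructor
        · rintro ⟨a, ha, hz⟩
          exact (Finset.mem_filter.1 ha).2 hz
        · intro hz
          exact ⟨⟨cls hG o z, Finset.mem_image_of_mem _ (hS0F hz)⟩, Finset.mem_filter.2 ⟨Finset.mem_univ _, hunion z hz⟩,
            cls_self hG (hS0F hz)⟩
      have hS5 : S.card = 5 := by
        have := hcard S
        rw [hco, h21] at this
        omega
      refine ⟨S, (hΦ S).2 ⟨?_, hS5.ge⟩, hco⟩
      rintro a ha b hb ⟨x, hx, y, hy, h⟩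
      have hxS := (Finset.mem_filter.1 ha).2 hx
      have hyS := (Finset.mem_filter.1 hb).2 hy
      -- the other members all have product one
      have h1 := hWin x hxS
      have hle : ∀ s ∈ S0, W G o x s ≤ (if W G o x s = 2 then 2 else 0) + (if W G o x s = 2 then 0 else 1) := by
        intro s hs; rcases (W_range hG (hS0F hxS) (hS0F hs)).1 with e | e | e <;> rw [e] <;> norm_num
      have hlt := Finset.sum_lt_sum hle ⟨y, hyS, by rw [h]; norm_num⟩
      rw [h1, Finset.sum_add_distrib, ← Finset.sum_filter] at hlt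
      have e1 : S0.filter (fun s => W G o x s = 2) = cls hG o x := by
        ext s
        rw [Finset.mem_filter, mem_cls hG]
        exact ⟨fun h => ⟨hS0F h.1, h.2⟩, fun h => ⟨hunion x hxS ((mem_cls hG).2 h), h.2⟩⟩
      have e2 : ∑ s ∈ S0, (if W G o x s = 2 then (0 : ℤ) else 1) = 16 := by
        have hh : ∀ s ∈ S0, (if W G o x s = 2 then (0 : ℤ) else 1) = 1 - if W G o x s = 2 then 1 else 0 := by
          intro s _; split_ifs <;> norm_num
        rw [Finset.sum_congr rfl hh, Finset.sum_sub_distrib, ← Finset.sum_filter, e1, Finset.sum_const,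
          Finset.sum_const, hS0c, cls_card hG (hS0F hxS)]
        norm_num
      rw [e1, e2, Finset.sum_const, cls_card hG (hS0F hxS)] at hlt
      norm_num at hlt
    · rintro ⟨S, hS, rfl⟩
      obtain ⟨hfree, -⟩ := (hΦ S).1 hS
      refine ⟨mem_Co.2 ⟨by rw [hcard, h5 S hS], ?_⟩, Finset.mem_insert_self ..⟩
      intro x hx y hy hadj
      rcases Finset.mem_insert.1 hx with rfl | hx <;> rcases Finset.mem_insert.1 hy with rfl | hy
      · exact G.irrefl hadj
      · obtain ⟨b, -, hyb⟩ := Finset.mem_biUnion.1 hy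
        exact ((mem_Far hG).1 (hsub b hyb)).2 hadj
      · obtain ⟨b, -, hxb⟩ := Finset.mem_biUnion.1 hx
        exact ((mem_Far hG).1 (hsub b hxb)).2 hadj.symm
      · obtain ⟨a, ha, hxa⟩ := Finset.mem_biUnion.1 hx
        obtain ⟨b, hb, hyb⟩ := Finset.mem_biUnion.1 hy
        exact hfree a ha b hb ⟨x, hxa, y, hyb, W_adj hG hadj⟩
  exact ⟨Φ, h6, h2, himg, by rw [himg, Finset.card_image_of_injective _ hinj, h6]⟩

theorem co_six (o : V) : ((Co G).filter fun C => o ∈ C).card = 6 := by
  obtain ⟨_, -, -, -, h⟩ := cocliques_at hG o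
  exact h

theorem co_pair {o y : V} (hne : y ≠ o) (hy : ¬ G.Adj o y) : ∃ C ∈ Co G, o ∈ C ∧ y ∈ C := by
  obtain ⟨Φ, h6, h2, himg, -⟩ := cocliques_at hG o
  have hyF : y ∈ Far G o := (mem_Far hG).2 ⟨hne, hy⟩
  let a : Beta hG o := ⟨cls hG o y, Finset.mem_image_of_mem _ hyF⟩
  obtain ⟨S, hS⟩ := Finset.card_pos.1 (by rw [h2 a]; norm_num : 0 < (Φ.filter fun S => a ∈ S).card)
  rw [Finset.mem_filter] at hS
  have := (Finset.ext_iff.1 himg (coOf hG S)).2 (Finset.mem_image_of_mem _ hS.1)
  rw [Finset.mem_filter] at this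
  exact ⟨_, this.1, this.2, Finset.mem_insert_of_mem (Finset.mem_biUnion.2 ⟨a, hS.2, cls_self hG hyF⟩)⟩

theorem co_three {o y : V} (hne : y ≠ o) : ((Co G).filter fun C => o ∈ C ∧ y ∈ C).card ≤ 2 := by
  by_cases hy : G.Adj o y
  · rw [Finset.card_eq_zero.2 (Finset.filter_eq_empty_iff.2 fun C hC h => (mem_Co.1 hC).2 o h.1 y h.2 hy)]
    norm_num
  obtain ⟨Φ, h6, h2, himg, -⟩ := cocliques_at hG o
  have hyF : y ∈ Far G o := (mem_Far hG).2 ⟨hne, hy⟩
  let a : Beta hG o := ⟨cls hG o y, Finset.mem_image_of_mem _ hyF⟩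
  refine le_trans (Finset.card_le_card (t := (Φ.filter fun S => a ∈ S).image (coOf hG)) fun C hC => ?_)
    (Finset.card_image_le.trans (h2 a).le)
  rw [Finset.mem_filter] at hC
  have : C ∈ Φ.image (coOf hG) := himg ▸ Finset.mem_filter.2 ⟨hC.1, hC.2.1⟩
  obtain ⟨S, hS, rfl⟩ := Finset.mem_image.1 this
  refine Finset.mem_image_of_mem _ (Finset.mem_filter.2 ⟨hS, ?_⟩)
  rcases Finset.mem_insert.1 hC.2.2 with e | e
  · exact absurd e hne
  obtain ⟨b, hb, hyb⟩ := Finset.mem_biUnion.1 e
  obtain ⟨x, hx, hbx⟩ := rep hG b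
  rw [hbx, mem_cls hG] at hyb
  rwa [show a = b from Subtype.ext (hbx ▸ ((cls_eq_iff hG hx hyF).2 hyb.2).symm)]

theorem co_card : (Co G).card = 22 := by
  have h := Finset.sum_card_bipartiteAbove_eq_sum_card_bipartiteBelow (s := Co G) (t := (Finset.univ : Finset V))
    (fun C x => x ∈ C)
  rw [Finset.sum_congr rfl fun C hC => show (Finset.bipartiteAbove (fun C x => x ∈ C) Finset.univ C).card = 21 by
      rw [← (mem_Co.1 hC).1]; congr 1; ext a; simp [Finset.bipartiteAbove],
    Finset.sum_congr rfl fun x _ => show (Finset.bipartiteBelow (fun C x => x ∈ C) (Co G) x).card = 6 from co_six hG x,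
    Finset.sum_const, Finset.sum_const, Finset.card_univ, hG.card] at h
  simp at h
  omega

end Cfsg.Agent.TwoGroups.SrgSeventySeven
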