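import Mathlib

/-! The configuration on 15 things (lines of valency 6, one common neighbour on an edge, three off an edge):
its six maximal free sets of size five. -/

set_option autoImplicit false
set_option linter.unusedSectionVars false

namespace Cfsg.Agent.TwoGroups.SrgSeventySeven

variable {β : Type*} [Fintype β] [DecidableEq β] (D : β → β → Prop) [DecidableRel D]

/-- The neighbours. -/
def nb (a : β) : Finset β := Finset.univ.filter (D a)

/-- Regularity conditions. -/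
structure GQ : Prop where
  card : Fintype.card β = 15
  symm : ∀ a b, D a b → D b a
  irrefl : ∀ a, ¬ D a a
  deg : ∀ a, (nb D a).card = 6
  edge : ∀ a b, D a b → (nb D a ∩ nb D b).card = 1
  non : ∀ a b, a ≠ b → ¬ D a b → (nb D a ∩ nb D b).card = 3

/-- Sets with no two related members. -/
def Free (S : Finset β) : Prop := ∀ x ∈ S, ∀ y ∈ S, ¬ D x y

namespace GQ

variable {D} (Q : GQ D)
include Q

theorem mem_nb {a b : β} : b ∈ nb D a ↔ D a b := by have _ := Q; simp [nb]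

theorem third_unique {a b x y : β} (h : D a b) (hx : D a x) (hx' : D b x) (hy : D a y) (hy' : D b y) : x = y := by
  obtain ⟨z, hz⟩ := Finset.card_eq_one.1 (Q.edge a b h)
  have h1 : x ∈ nb D a ∩ nb D b := Finset.mem_inter.2 ⟨Q.mem_nb.2 hx, Q.mem_nb.2 hx'⟩
  have h2 : y ∈ nb D a ∩ nb D b := Finset.mem_inter.2 ⟨Q.mem_nb.2 hy, Q.mem_nb.2 hy'⟩
  rw [hz, Finset.mem_singleton] at h1 h2
  rw [h1, h2]

theorem third_exists {a b : β} (h : D a b) : ∃ x, D a x ∧ D b x := by
  obtain ⟨x, hx⟩ := Finset.card_pos.1 (by rw [Q.edge a b h]; norm_num : 0 < (nb D a ∩ nb D b).card)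
  rw [Finset.mem_inter, Q.mem_nb, Q.mem_nb] at hx
  exact ⟨x, hx⟩

section Fixed

variable {a : β}

/-- Membership in the set of things not related to `a`. -/
theorem trace_free {b u v : β} (hb : b ≠ a) (hu : u ∈ nb D a ∩ nb D b) (hv : v ∈ nb D a ∩ nb D b) : ¬ D u v := by
  intro h
  rw [Finset.mem_inter, Q.mem_nb, Q.mem_nb] at hu hv
  exact hb (Q.third_unique h (Q.symm _ _ hu.2) (Q.symm _ _ hv.2) (Q.symm _ _ hu.1) (Q.symm _ _ hv.1))

theorem trace_edge {b c : β} (hb : b ≠ a) (hb' : ¬ D a b) (hc : c ≠ a) (hc' : ¬ D a c) (h : D b c) :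
    ((nb D a ∩ nb D b) ∩ (nb D a ∩ nb D c)).card = 1 := by
  obtain ⟨x, hxb, hxc⟩ := Q.third_exists h
  by_cases hx : D a x
  · refine Finset.card_eq_one.2 ⟨x, Finset.ext fun y => ?_⟩
    simp only [Finset.mem_inter, Q.mem_nb, Finset.mem_singleton]
    exact ⟨fun ⟨⟨_, h1⟩, _, h2⟩ => Q.third_unique h h1 h2 hxb hxc, by rintro rfl; exact ⟨⟨hx, hxb⟩, hx, hxc⟩⟩
  · exfalso
    have hxa : x ≠ a := fun e => hb' (e ▸ Q.symm _ _ hxb)
    set A := nb D a ∩ nb D b
    set B := nb D a ∩ nb D c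
    set C := nb D a ∩ nb D x
    have hA : A.card = 3 := Q.non a b (Ne.symm hb) hb'
    have hB : B.card = 3 := Q.non a c (Ne.symm hc) hc'
    have hC : C.card = 3 := Q.non a x (Ne.symm hxa) hx
    have d1 : Disjoint A B := Finset.disjoint_left.2 fun y h1 h2 => by
      simp only [A, B, Finset.mem_inter, Q.mem_nb] at h1 h2
      exact hx (Q.third_unique h h1.2 h2.2 hxb hxc ▸ h1.1)
    have d2 : Disjoint (A ∪ B) C := Finset.disjoint_left.2 fun y h1 h2 => by
      simp only [A, B, C, Finset.mem_union, Finset.mem_inter, Q.mem_nb] at h1 h2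
      rcases h1 with h1 | h1
      · exact hc' (Q.third_unique hxb h1.2 h2.2 h (Q.symm _ _ hxc) ▸ h1.1)
      · exact hb' (Q.third_unique hxc h1.2 h2.2 (Q.symm _ _ h) (Q.symm _ _ hxb) ▸ h1.1)
    have hle : ((A ∪ B) ∪ C).card ≤ (nb D a).card := Finset.card_le_card fun y hy => by
      simp only [A, B, C, Finset.mem_union, Finset.mem_inter] at hy
      rcases hy with (h | h) | h <;> exact h.1
    rw [Finset.card_union_of_disjoint d2, Finset.card_union_of_disjoint d1, Q.deg] at hle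
    omega

/-- Two traces with two common members are equal. -/
theorem trace_eq {b c : β} (hb : b ≠ a) (hb' : ¬ D a b) (hc : c ≠ a) (hc' : ¬ D a c) {u v : β} (huv : u ≠ v)
    (hu : u ∈ nb D a ∩ nb D b) (hv : v ∈ nb D a ∩ nb D b) (hu' : u ∈ nb D a ∩ nb D c)
    (hv' : v ∈ nb D a ∩ nb D c) : nb D a ∩ nb D b = nb D a ∩ nb D c := by
  by_cases hbc : b = c
  · rw [hbc]
  set A := nb D a ∩ nb D b with hAdef
  set B := nb D a ∩ nb D c with hBdef
  have hA : A.card = 3 := Q.non a b (Ne.symm hb) hb'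
  have hB : B.card = 3 := Q.non a c (Ne.symm hc) hc'
  have hnd : ¬ D b c := fun h => by
    have h1 := Q.trace_edge hb hb' hc hc' h
    have h2 : ({u, v} : Finset β) ⊆ A ∩ B := by
      intro y hy
      simp only [Finset.mem_insert, Finset.mem_singleton] at hy
      rcases hy with rfl | rfl <;> exact Finset.mem_inter.2 ⟨‹_›, ‹_›⟩
    have := Finset.card_le_card h2
    rw [Finset.card_pair huv] at this
    rw [← hAdef, ← hBdef] at h1
    omega
  obtain ⟨w, hw, hwu, hwv⟩ : ∃ w ∈ nb D b ∩ nb D c, w ≠ u ∧ w ≠ v := by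
    by_contra hcon
    push Not at hcon
    have : nb D b ∩ nb D c ⊆ {u, v} := fun y hy => by
      by_cases hyu : y = u
      · simp [hyu]
      · simp [hcon y hy hyu]
    have := Finset.card_le_card this
    rw [Q.non b c hbc hnd, Finset.card_pair huv] at this
    omega
  simp only [Finset.mem_inter, Q.mem_nb] at hw
  simp only [hAdef, hBdef, Finset.mem_inter, Q.mem_nb] at hu hv hu' hv'
  by_cases hwa : D a w
  · have h3 : ({u, v, w} : Finset β).card = 3 := by
      rw [Finset.card_insert_of_notMem (by simp [huv, hwu.symm]), Finset.card_pair hwv.symm]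
    have e1 : ({u, v, w} : Finset β) = A := Finset.eq_of_subset_of_card_le (fun y hy => by
      simp only [Finset.mem_insert, Finset.mem_singleton] at hy
      simp only [hAdef, Finset.mem_inter, Q.mem_nb]
      rcases hy with rfl | rfl | rfl
      exacts [hu, hv, ⟨hwa, hw.1⟩]) (by rw [hA, h3])
    have e2 : ({u, v, w} : Finset β) = B := Finset.eq_of_subset_of_card_le (fun y hy => by
      simp only [Finset.mem_insert, Finset.mem_singleton] at hy
      simp only [hBdef, Finset.mem_inter, Q.mem_nb]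
      rcases hy with rfl | rfl | rfl
      exacts [hu', hv', ⟨hwa, hw.2⟩]) (by rw [hB, h3])
    exact e1.symm.trans e2
  exfalso
  have hwne : w ≠ a := fun e => hb' (e ▸ Q.symm _ _ hw.1)
  have hnot : ∀ y, D a y → D b y → D c y → ¬ D w y := fun y _ h2 h3 h4 =>
    hbc (Q.third_unique h4 (Q.symm _ _ hw.1) (Q.symm _ _ h2) (Q.symm _ _ hw.2) (Q.symm _ _ h3))
  have eb := Q.trace_edge hb hb' hwne hwa hw.1
  have ec := Q.trace_edge hc hc' hwne hwa hw.2
  obtain ⟨p, hp⟩ := Finset.card_eq_one.1 eb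
  obtain ⟨q, hq⟩ := Finset.card_eq_one.1 ec
  have hp' : p ∈ A ∩ (nb D a ∩ nb D w) := by rw [hAdef, hp]; exact Finset.mem_singleton_self p
  have hq' : q ∈ B ∩ (nb D a ∩ nb D w) := by rw [hBdef, hq]; exact Finset.mem_singleton_self q
  rw [Finset.mem_inter] at hp' hq'
  have hpu : p ≠ u := fun e => by
    have := (Finset.mem_inter.1 hp'.2).2
    exact hnot u hu.1 hu.2 hu'.2 (Q.mem_nb.1 (e ▸ this))
  have hpv : p ≠ v := fun e => by
    have := (Finset.mem_inter.1 hp'.2).2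
    exact hnot v hv.1 hv.2 hv'.2 (Q.mem_nb.1 (e ▸ this))
  have hqu : q ≠ u := fun e => by
    have := (Finset.mem_inter.1 hq'.2).2
    exact hnot u hu.1 hu.2 hu'.2 (Q.mem_nb.1 (e ▸ this))
  have hqv : q ≠ v := fun e => by
    have := (Finset.mem_inter.1 hq'.2).2
    exact hnot v hv.1 hv.2 hv'.2 (Q.mem_nb.1 (e ▸ this))
  have hpq : p ≠ q := fun e => by
    have h1 := Finset.mem_inter.1 hp'.1
    have h2 := Finset.mem_inter.1 (e ▸ hq'.1 : p ∈ B)
    exact hnot p (Q.mem_nb.1 h1.1) (Q.mem_nb.1 h1.2) (Q.mem_nb.1 h2.2) (Q.mem_nb.1 (Finset.mem_inter.1 hp'.2).2)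
  -- four pairwise unrelated members of the six neighbours of `a`
  set S : Finset β := {u, v, p, q}
  have hS : S.card = 4 := by
    rw [Finset.card_insert_of_notMem (by simp [huv, hpu.symm, hqu.symm]),
      Finset.card_insert_of_notMem (by simp [hpv.symm, hqv.symm]), Finset.card_pair hpq]
  have hfree : ∀ y ∈ S, ∀ z ∈ S, ¬ D y z := by
    have mA : u ∈ A ∧ v ∈ A := ⟨by simp [hAdef, Q.mem_nb, hu], by simp [hAdef, Q.mem_nb, hv]⟩
    have mB : u ∈ B ∧ v ∈ B := ⟨by simp [hBdef, Q.mem_nb, hu'], by simp [hBdef, Q.mem_nb, hv']⟩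
    have fA : ∀ y z, y ∈ A → z ∈ A → ¬ D y z := fun y z h1 h2 => Q.trace_free hb h1 h2
    have fB : ∀ y z, y ∈ B → z ∈ B → ¬ D y z := fun y z h1 h2 => Q.trace_free hc h1 h2
    have fC : ∀ y z, y ∈ nb D a ∩ nb D w → z ∈ nb D a ∩ nb D w → ¬ D y z :=
      fun y z h1 h2 => Q.trace_free hwne h1 h2
    intro y hy z hz
    simp only [S, Finset.mem_insert, Finset.mem_singleton] at hy hz
    rcases hy with rfl | rfl | rfl | rfl <;> rcases hz with rfl | rfl | rfl | rfl <;>
      first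
        | exact Q.irrefl _
        | exact fA _ _ (by first | exact hp'.1 | exact mA.1 | exact mA.2) (by first | exact hp'.1 | exact mA.1 | exact mA.2)
        | exact fB _ _ (by first | exact hq'.1 | exact mB.1 | exact mB.2) (by first | exact hq'.1 | exact mB.1 | exact mB.2)
        | exact fC _ _ (by first | exact hp'.2 | exact hq'.2) (by first | exact hp'.2 | exact hq'.2)
  have hSa : ∀ y ∈ S, D a y := by
    intro y hy
    simp only [S, Finset.mem_insert, Finset.mem_singleton] at hy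
    rcases hy with rfl | rfl | rfl | rfl
    exacts [hu.1, hv.1, Q.mem_nb.1 (Finset.mem_inter.1 hp'.1).1, Q.mem_nb.1 (Finset.mem_inter.1 hq'.1).1]
  have hex : ∀ y : S, ∃ z, D a z ∧ D y.1 z := fun y => Q.third_exists (hSa y.1 y.2)
  choose f hf1 hf2 using hex
  have hinj : Function.Injective f := fun y z e => by
    apply Subtype.ext
    exact Q.third_unique (hf1 y) (hSa _ y.2) (Q.symm _ _ (hf2 y)) (hSa _ z.2) (by rw [e]; exact Q.symm _ _ (hf2 z))
  have hdis : Disjoint S (Finset.univ.image f) := Finset.disjoint_left.2 fun y hy hy' => by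
    obtain ⟨z, -, rfl⟩ := Finset.mem_image.1 hy'
    exact hfree _ z.2 _ hy (hf2 z)
  have := Finset.card_le_card (show S ∪ Finset.univ.image f ⊆ nb D a from fun y hy => by
    rcases Finset.mem_union.1 hy with h | h
    · exact Q.mem_nb.2 (hSa y h)
    · obtain ⟨z, -, rfl⟩ := Finset.mem_image.1 h
      exact Q.mem_nb.2 (hf1 z))
  rw [Finset.card_union_of_disjoint hdis, Finset.card_image_of_injective _ hinj, Q.deg, Finset.card_univ,
    Fintype.card_coe, hS] at this
  omega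

/-- The things different from and unrelated to `a`. -/
theorem other_card (a : β) : (Finset.univ.filter fun b => b ≠ a ∧ ¬ D a b).card = 8 := by
  have e : (Finset.univ.filter fun b => b ≠ a ∧ ¬ D a b) = (Finset.univ.erase a) \ nb D a := by
    ext b; simp [Q.mem_nb]
  rw [e, Finset.card_sdiff_of_subset, Finset.card_erase_of_mem (Finset.mem_univ a), Finset.card_univ, Q.card, Q.deg]
  intro b hb
  exact Finset.mem_erase.2 ⟨fun e => by subst e; exact Q.irrefl _ (Q.mem_nb.1 hb), Finset.mem_univ b⟩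

theorem twin {b : β} (hb : b ≠ a) (hb' : ¬ D a b) :
    ∃ b', b' ≠ b ∧ b' ≠ a ∧ ¬ D a b' ∧ ¬ D b b' ∧ nb D a ∩ nb D b = nb D a ∩ nb D b' ∧
      ∀ c, c ≠ a → ¬ D a c → nb D a ∩ nb D b = nb D a ∩ nb D c → c = b ∨ c = b' := by
  have hA : (nb D a ∩ nb D b).card = 3 := Q.non a b (Ne.symm hb) hb'
  obtain ⟨u, v, hu, hv, huv⟩ := Finset.one_lt_card_iff.1 (by rw [hA]; norm_num : 1 < (nb D a ∩ nb D b).card)
  have hnd := Q.trace_free hb hu hv
  have hu' := Finset.mem_inter.1 hu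
  have hv' := Finset.mem_inter.1 hv
  rw [Q.mem_nb, Q.mem_nb] at hu' hv'
  set U := nb D u ∩ nb D v
  have hU : U.card = 3 := Q.non u v huv hnd
  have hmem : ∀ {c}, c ∈ U → c ≠ a → c ≠ a ∧ ¬ D a c ∧ nb D a ∩ nb D b = nb D a ∩ nb D c := by
    intro c hc hca
    rw [Finset.mem_inter, Q.mem_nb, Q.mem_nb] at hc
    have hac : ¬ D a c := fun h => huv (Q.third_unique h hu'.1 (Q.symm _ _ hc.1) hv'.1 (Q.symm _ _ hc.2))
    exact ⟨hca, hac, Q.trace_eq hb hb' hca hac huv hu hv
      (Finset.mem_inter.2 ⟨Q.mem_nb.2 hu'.1, Q.mem_nb.2 (Q.symm _ _ hc.1)⟩)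
      (Finset.mem_inter.2 ⟨Q.mem_nb.2 hv'.1, Q.mem_nb.2 (Q.symm _ _ hc.2)⟩)⟩
  have ha : a ∈ U := Finset.mem_inter.2 ⟨Q.mem_nb.2 (Q.symm _ _ hu'.1), Q.mem_nb.2 (Q.symm _ _ hv'.1)⟩
  have hbU : b ∈ U := Finset.mem_inter.2 ⟨Q.mem_nb.2 (Q.symm _ _ hu'.2), Q.mem_nb.2 (Q.symm _ _ hv'.2)⟩
  have h1 : ((U.erase a).erase b).card = 1 := by
    rw [Finset.card_erase_of_mem (Finset.mem_erase.2 ⟨hb, hbU⟩), Finset.card_erase_of_mem ha, hU]
  obtain ⟨b', hb''⟩ := Finset.card_eq_one.1 h1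
  have hm : b' ∈ (U.erase a).erase b := by rw [hb'']; exact Finset.mem_singleton_self b'
  simp only [Finset.mem_erase] at hm
  obtain ⟨k1, k2, k3⟩ := hmem hm.2.2 hm.2.1
  refine ⟨b', hm.1, k1, k2, fun h => ?_, k3, fun c hca hac e => ?_⟩
  · have h2 := Q.trace_edge hb hb' k1 k2 h
    rw [← k3, Finset.inter_self, hA] at h2
    omega
  · by_cases hcb : c = b
    · exact Or.inl hcb
    refine Or.inr (Finset.mem_singleton.1 ?_)
    rw [← hb'']
    simp only [Finset.mem_erase]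
    rw [e] at hu hv
    simp only [Finset.mem_inter, Q.mem_nb] at hu hv
    exact ⟨hcb, hca, Finset.mem_inter.2 ⟨Q.mem_nb.2 (Q.symm _ _ hu.2), Q.mem_nb.2 (Q.symm _ _ hv.2)⟩⟩

/-- The twin of a partner of `b` is related to `b`. -/
theorem twin_related {b c c' : β} (hb : b ≠ a) (hb' : ¬ D a b) (hca : c ≠ a) (hac : ¬ D a c) (hbc : ¬ D b c)
    (hT : nb D a ∩ nb D b ≠ nb D a ∩ nb D c) (hc1 : c' ≠ c) (hc2 : c' ≠ a) (hc3 : ¬ D a c')
    (hc5 : nb D a ∩ nb D c = nb D a ∩ nb D c')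
    (hc6 : ∀ d, d ≠ a → ¬ D a d → nb D a ∩ nb D c = nb D a ∩ nb D d → d = c ∨ d = c') : D b c' := by
  obtain ⟨b', hb1, hb2, hb3, hb4, hb5, hb6⟩ := Q.twin hb hb'
  set H := Finset.univ.filter fun c => c ≠ a ∧ ¬ D a c with hH
  have hH8 : H.card = 8 := Q.other_card a
  have hmemH : ∀ {c}, c ∈ H ↔ c ≠ a ∧ ¬ D a c := fun {c} => by simp [hH]
  have hA : (nb D a ∩ nb D b).card = 3 := Q.non a b (Ne.symm hb) hb'
  -- every member of `H` shares something with `b`
  have hmeet : ∀ c ∈ H, ((nb D a ∩ nb D b) ∩ (nb D a ∩ nb D c)).Nonempty := by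
    intro c hc
    by_contra hne
    set A := nb D a ∩ nb D b with hAdef
    set F : β → Finset β := fun u => (H.filter fun d => D d u) \ {b, b'}
    have hF : ∀ u ∈ A, (F u).card = 2 := by
      intro u hu
      simp only [hAdef, Finset.mem_inter, Q.mem_nb] at hu
      obtain ⟨p, hp1, hp2⟩ := Q.third_exists hu.1
      have e : (H.filter fun d => D d u) = ((nb D u).erase a).erase p := by
        ext d
        simp only [Finset.mem_filter, hmemH, Finset.mem_erase, Q.mem_nb]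
        constructor
        · rintro ⟨⟨h1, h2⟩, h3⟩; exact ⟨fun e => h2 (e ▸ hp1), h1, Q.symm _ _ h3⟩
        · rintro ⟨h1, h2, h3⟩; exact ⟨⟨h2, fun h => h1 (Q.third_unique hu.1 h h3 hp1 hp2)⟩, Q.symm _ _ h3⟩
      have hsub : ({b, b'} : Finset β) ⊆ H.filter fun d => D d u := by
        intro d hd
        simp only [Finset.mem_insert, Finset.mem_singleton] at hd
        rw [Finset.mem_filter]
        rcases hd with rfl | rfl
        · exact ⟨hmemH.2 ⟨hb, hb'⟩, hu.2⟩
        · refine ⟨hmemH.2 ⟨hb2, hb3⟩, ?_⟩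
          have : u ∈ nb D a ∩ nb D d := hb5 ▸ Finset.mem_inter.2 ⟨Q.mem_nb.2 hu.1, Q.mem_nb.2 hu.2⟩
          exact Q.mem_nb.1 (Finset.mem_inter.1 this).2
      simp only [F]
      rw [Finset.card_sdiff_of_subset hsub, e, Finset.card_erase_of_mem, Finset.card_erase_of_mem, Q.deg,
        Finset.card_pair hb1.symm]
      · exact Q.mem_nb.2 (Q.symm _ _ hu.1)
      · exact Finset.mem_erase.2 ⟨fun e => Q.irrefl a (e ▸ hp1), Q.mem_nb.2 hp2⟩
    have hdis : (A : Set β).PairwiseDisjoint F := fun u hu v hv huv => Finset.disjoint_left.2 fun d h1 h2 => by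
      simp only [F, Finset.mem_sdiff, Finset.mem_filter, Finset.mem_insert, Finset.mem_singleton, hmemH] at h1 h2
      have hua := (Finset.mem_inter.1 (Finset.mem_coe.1 hu)).1
      have hva := (Finset.mem_inter.1 (Finset.mem_coe.1 hv)).1
      exact h1.2 (hb6 d h1.1.1.1 h1.1.1.2 (Q.trace_eq hb hb' h1.1.1.1 h1.1.1.2 huv (Finset.mem_coe.1 hu)
        (Finset.mem_coe.1 hv) (Finset.mem_inter.2 ⟨hua, Q.mem_nb.2 h1.1.2⟩)
        (Finset.mem_inter.2 ⟨hva, Q.mem_nb.2 h2.1.2⟩)))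
    have hsub : A.biUnion F ⊆ ((H.erase b).erase b').erase c := by
      intro d hd
      obtain ⟨u, hu, hd⟩ := Finset.mem_biUnion.1 hd
      simp only [F, Finset.mem_sdiff, Finset.mem_filter, Finset.mem_insert, Finset.mem_singleton, not_or] at hd
      refine Finset.mem_erase.2 ⟨fun e => hne ⟨u, Finset.mem_inter.2 ⟨hu, ?_⟩⟩,
        Finset.mem_erase.2 ⟨hd.2.2, Finset.mem_erase.2 ⟨hd.2.1, hd.1.1⟩⟩⟩
      exact Finset.mem_inter.2 ⟨(Finset.mem_inter.1 hu).1, Q.mem_nb.2 (e ▸ hd.1.2)⟩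
    have := Finset.card_le_card hsub
    have hbH : b ∈ H := hmemH.2 ⟨hb, hb'⟩
    have hbH' : b' ∈ H.erase b := Finset.mem_erase.2 ⟨hb1, hmemH.2 ⟨hb2, hb3⟩⟩
    have hcH : c ∈ (H.erase b).erase b' := by
      refine Finset.mem_erase.2 ⟨fun e => hne ?_, Finset.mem_erase.2 ⟨fun e => hne ?_, hc⟩⟩
      · rw [e, ← hb5, Finset.inter_self]; exact Finset.card_pos.1 (by omega)
      · rw [e, Finset.inter_self]; exact Finset.card_pos.1 (by omega)
    rw [Finset.card_biUnion hdis, Finset.sum_congr rfl hF, Finset.sum_const, hA, Finset.card_erase_of_mem hcH,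
      Finset.card_erase_of_mem hbH', Finset.card_erase_of_mem hbH, hH8] at this
    norm_num at this
  have hc : (c ≠ a ∧ ¬ D a c) ∧ ¬ D b c ∧ nb D a ∩ nb D b ≠ nb D a ∩ nb D c := ⟨⟨hca, hac⟩, hbc, hT⟩
  obtain ⟨u, hu⟩ := hmeet c (hmemH.2 hc.1)
  rw [Finset.mem_inter] at hu
  have hu1 := hu.1
  rw [Finset.mem_inter, Q.mem_nb, Q.mem_nb] at hu1
  obtain ⟨w, hw1, hw2⟩ := Q.third_exists hu1.2
  -- `w` is related to `b` and `u`
  have hwa : ¬ D a w := fun h => Q.trace_free hb hu.1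
    (Finset.mem_inter.2 ⟨Q.mem_nb.2 h, Q.mem_nb.2 hw1⟩) hw2
  have hwne : w ≠ a := fun e => hb' (Q.symm _ _ (e ▸ hw1))
  by_cases hwc : nb D a ∩ nb D c = nb D a ∩ nb D w
  · rcases hc6 w hwne hwa hwc with rfl | rfl
    · exact absurd hw1 hc.2.1
    · exact hw1
  · exfalso
    -- `u` would be related to seven things
    obtain ⟨p, hp1, hp2⟩ := Q.third_exists hu1.1
    set S : Finset β := {a, p, b, b', c, c', w}
    have hpa : D a p := hp1
    have hcu := (Finset.mem_inter.1 hu.2).2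
    have hcu' : u ∈ nb D a ∩ nb D c' := hc5 ▸ hu.2
    have hbu' : u ∈ nb D a ∩ nb D b' := hb5 ▸ hu.1
    have hS : S ⊆ nb D u := by
      intro y hy
      simp only [S, Finset.mem_insert, Finset.mem_singleton] at hy
      rw [Q.mem_nb]
      rcases hy with rfl | rfl | rfl | rfl | rfl | rfl | rfl
      exacts [Q.symm _ _ hu1.1, hp2, Q.symm _ _ hu1.2, Q.symm _ _ (Q.mem_nb.1 (Finset.mem_inter.1 hbu').2),
        Q.symm _ _ (Q.mem_nb.1 hcu), Q.symm _ _ (Q.mem_nb.1 (Finset.mem_inter.1 hcu').2), hw2]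
    have n1 : a ∉ ({p, b, b', c, c', w} : Finset β) := by
      simp only [Finset.mem_insert, Finset.mem_singleton, not_or]
      exact ⟨fun e => Q.irrefl a (e ▸ hpa), hb.symm, hb2.symm, hc.1.1.symm, hc2.symm, hwne.symm⟩
    have n2 : p ∉ ({b, b', c, c', w} : Finset β) := by
      simp only [Finset.mem_insert, Finset.mem_singleton, not_or]
      exact ⟨fun e => hb' (e ▸ hpa), fun e => hb3 (e ▸ hpa), fun e => hc.1.2 (e ▸ hpa), fun e => hc3 (e ▸ hpa),
        fun e => hwa (e ▸ hpa)⟩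
    have hbw : nb D a ∩ nb D b ≠ nb D a ∩ nb D w := fun e => by
      rcases hb6 w hwne hwa e with rfl | rfl
      exacts [Q.irrefl _ hw1, hb4 hw1]
    have n3 : b ∉ ({b', c, c', w} : Finset β) := by
      simp only [Finset.mem_insert, Finset.mem_singleton, not_or]
      exact ⟨hb1.symm, fun e => hc.2.2 (by rw [e]), fun e => hc.2.2 (by rw [hc5, ← e]), fun e => hbw (by rw [← e])⟩
    have n4 : b' ∉ ({c, c', w} : Finset β) := by
      simp only [Finset.mem_insert, Finset.mem_singleton, not_or]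
      exact ⟨fun e => hc.2.2 (by rw [hb5, e]), fun e => hc.2.2 (by rw [hb5, e, hc5]), fun e => hbw (by rw [hb5, e])⟩
    have n5 : c ∉ ({c', w} : Finset β) := by
      simp only [Finset.mem_insert, Finset.mem_singleton, not_or]
      exact ⟨hc1.symm, fun e => hwc (by rw [e])⟩
    have hS7 : S.card = 7 := by
      simp only [S]
      rw [Finset.card_insert_of_notMem n1, Finset.card_insert_of_notMem n2, Finset.card_insert_of_notMem n3,
        Finset.card_insert_of_notMem n4, Finset.card_insert_of_notMem n5,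
        Finset.card_pair fun e => hwc (by rw [← e, hc5])]
    have := Finset.card_le_card hS
    rw [hS7, Q.deg] at this
    omega

/-- The partners of `b`. -/
theorem companions {b : β} (hb : b ≠ a) (hb' : ¬ D a b) :
    ∃ K : Finset β, K.card = 4 ∧ b ∈ K ∧ (∀ x ∈ K, x ≠ a ∧ ¬ D a x) ∧ Free D K ∧
      ∀ c, c ≠ a → ¬ D a c → ¬ D b c → nb D a ∩ nb D b ≠ nb D a ∩ nb D c → c ∈ K := by
  obtain ⟨b', hb1, hb2, hb3, hb4, hb5, hb6⟩ := Q.twin hb hb'
  set H := Finset.univ.filter fun c => c ≠ a ∧ ¬ D a c with hH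
  have hH8 : H.card = 8 := Q.other_card a
  have hmemH : ∀ {c}, c ∈ H ↔ c ≠ a ∧ ¬ D a c := fun {c} => by simp [hH]
  set K0 := H.filter fun c => ¬ D b c ∧ nb D a ∩ nb D b ≠ nb D a ∩ nb D c with hK0
  have hmemK : ∀ {c}, c ∈ K0 ↔ c ∈ H ∧ ¬ D b c ∧ nb D a ∩ nb D b ≠ nb D a ∩ nb D c := fun {c} => by simp [hK0]
  have hA : (nb D a ∩ nb D b).card = 3 := Q.non a b (Ne.symm hb) hb'
  set N := H.filter fun c => D b c with hN
  have hN3 : N.card = 3 := by
    have e : N = nb D b \ (nb D a ∩ nb D b) := by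
      ext c
      simp only [hN, Finset.mem_filter, hmemH, Finset.mem_sdiff, Finset.mem_inter, Q.mem_nb]
      exact ⟨fun h => ⟨h.2, fun h' => h.1.2 h'.1⟩,
        fun h => ⟨⟨fun e => hb' (Q.symm _ _ (e ▸ h.1)), fun h' => h.2 ⟨h', h.1⟩⟩, h.1⟩⟩
    rw [e, Finset.card_sdiff_of_subset Finset.inter_subset_right, Q.deg, hA]
  have hK3 : K0.card = 3 := by
    have e : H = ({b, b'} ∪ N) ∪ K0 := by
      ext c
      simp only [Finset.mem_union, Finset.mem_insert, Finset.mem_singleton, hN, Finset.mem_filter, hmemK, hmemH]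
      constructor
      · intro hc
        by_cases h1 : D b c
        · exact Or.inl (Or.inr ⟨hc, h1⟩)
        by_cases h2 : nb D a ∩ nb D b = nb D a ∩ nb D c
        · exact Or.inl (Or.inl (hb6 c hc.1 hc.2 h2))
        · exact Or.inr ⟨hc, h1, h2⟩
      · rintro (((rfl | rfl) | h) | h)
        exacts [⟨hb, hb'⟩, ⟨hb2, hb3⟩, h.1, h.1]
    have d1 : Disjoint ({b, b'} : Finset β) N := Finset.disjoint_left.2 fun c hc hc' => by
      simp only [hN, Finset.mem_filter] at hc'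
      simp only [Finset.mem_insert, Finset.mem_singleton] at hc
      rcases hc with rfl | rfl
      exacts [Q.irrefl _ hc'.2, hb4 hc'.2]
    have d2 : Disjoint ({b, b'} ∪ N) K0 := Finset.disjoint_left.2 fun c hc hc' => by
      rw [hmemK] at hc'
      simp only [Finset.mem_union, Finset.mem_insert, Finset.mem_singleton, hN, Finset.mem_filter] at hc
      rcases hc with (rfl | rfl) | hc
      exacts [hc'.2.2 rfl, hc'.2.2 hb5, hc'.2.1 hc.2]
    rw [e, Finset.card_union_of_disjoint d2, Finset.card_union_of_disjoint d1, Finset.card_pair hb1.symm, hN3] at hH8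
    omega
  refine ⟨insert b K0, ?_, Finset.mem_insert_self .., fun x hx => ?_, ?_, fun c h1 h2 h3 h4 =>
    Finset.mem_insert_of_mem (hmemK.2 ⟨hmemH.2 ⟨h1, h2⟩, h3, h4⟩)⟩
  · rw [Finset.card_insert_of_notMem fun h => (hmemK.1 h).2.2 rfl, hK3]
  · rcases Finset.mem_insert.1 hx with rfl | hx
    exacts [⟨hb, hb'⟩, hmemH.1 (hmemK.1 hx).1]
  intro c hc d hd hcd
  rcases Finset.mem_insert.1 hc with rfl | hc <;> rcases Finset.mem_insert.1 hd with rfl | hd
  · exact Q.irrefl _ hcd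
  · exact (hmemK.1 hd).2.1 hcd
  · exact (hmemK.1 hc).2.1 (Q.symm _ _ hcd)
  have hc' := hmemK.1 hc
  have hd' := hmemK.1 hd
  rw [hmemH] at hc' hd'
  obtain ⟨c', c1, c2, c3, c4, c5, c6⟩ := Q.twin hc'.1.1 hc'.1.2
  obtain ⟨d', d1, d2, d3, d4, d5, d6⟩ := Q.twin hd'.1.1 hd'.1.2
  have hbc := Q.twin_related hb hb' hc'.1.1 hc'.1.2 hc'.2.1 hc'.2.2 c1 c2 c3 c5 c6
  have hbd := Q.twin_related hb hb' hd'.1.1 hd'.1.2 hd'.2.1 hd'.2.2 d1 d2 d3 d5 d6
  obtain ⟨x, hx⟩ := Finset.card_eq_one.1 (Q.trace_edge hc'.1.1 hc'.1.2 hd'.1.1 hd'.1.2 hcd)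
  have hxm : x ∈ (nb D a ∩ nb D c) ∩ (nb D a ∩ nb D d) := by rw [hx]; exact Finset.mem_singleton_self x
  rw [Finset.mem_inter] at hxm
  have hxc := Q.mem_nb.1 (Finset.mem_inter.1 hxm.1).2
  have hxd := Q.mem_nb.1 (Finset.mem_inter.1 hxm.2).2
  have hxc' : D c' x := Q.mem_nb.1 (Finset.mem_inter.1 (c5 ▸ hxm.1)).2
  have hxd' : D d' x := Q.mem_nb.1 (Finset.mem_inter.1 (d5 ▸ hxm.2)).2
  have hxa := Q.mem_nb.1 (Finset.mem_inter.1 hxm.1).1
  obtain ⟨p, hp1, hp2⟩ := Q.third_exists hxa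
  obtain ⟨w, hw1, hw2⟩ := Q.third_exists hxc'
  have hTcd : nb D a ∩ nb D c ≠ nb D a ∩ nb D d := fun e => by
    rcases c6 d hd'.1.1 hd'.1.2 e with h | h
    exacts [Q.irrefl _ (h ▸ hcd), c4 (h ▸ hcd)]
  have nd : c ≠ d := fun e => hTcd (by rw [e])
  have nd' : c ≠ d' := fun e => hTcd (by rw [e, d5])
  have nc' : c' ≠ d := fun e => hTcd (by rw [c5, e])
  have nc'' : c' ≠ d' := fun e => hTcd (by rw [c5, e, d5])
  have hU : nb D x = {a, p, c, c', d, d'} := by
    refine (Finset.eq_of_subset_of_card_le (fun y hy => ?_) ?_).symm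
    · simp only [Finset.mem_insert, Finset.mem_singleton] at hy
      rw [Q.mem_nb]
      rcases hy with rfl | rfl | rfl | rfl | rfl | rfl
      exacts [Q.symm _ _ hxa, hp2, Q.symm _ _ hxc, Q.symm _ _ hxc', Q.symm _ _ hxd, Q.symm _ _ hxd']
    · rw [Q.deg, Finset.card_insert_of_notMem, Finset.card_insert_of_notMem, Finset.card_insert_of_notMem,
        Finset.card_insert_of_notMem, Finset.card_pair d1.symm]
      · simp [nc', nc'']
      · simp [c1.symm, nd, nd']
      · simp only [Finset.mem_insert, Finset.mem_singleton, not_or]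
        exact ⟨fun e => hc'.1.2 (e ▸ hp1), fun e => c3 (e ▸ hp1), fun e => hd'.1.2 (e ▸ hp1), fun e => d3 (e ▸ hp1)⟩
      · simp only [Finset.mem_insert, Finset.mem_singleton, not_or]
        exact ⟨fun e => Q.irrefl a (e ▸ hp1), hc'.1.1.symm, c2.symm, hd'.1.1.symm, d2.symm⟩
  have hwm : w ∈ nb D x := Q.mem_nb.2 hw2
  rw [hU] at hwm
  simp only [Finset.mem_insert, Finset.mem_singleton] at hwm
  have hwd : w = d' := by
    rcases hwm with e | e | e | e | e | e
    · exact absurd (Q.symm _ _ (e ▸ hw1)) c3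
    · have h : D p c' := Q.symm _ _ (e ▸ hw1)
      exact absurd (Q.third_unique hp2 (Q.symm _ _ hxa) (Q.symm _ _ hp1) (Q.symm _ _ hxc') h).symm c2
    · exact absurd (Q.symm _ _ (e ▸ hw1)) c4
    · exact absurd (e ▸ hw1) (Q.irrefl _)
    · have h : D d c' := Q.symm _ _ (e ▸ hw1)
      exact absurd (Q.third_unique hxd (Q.symm _ _ hcd) (Q.symm _ _ hxc) h (Q.symm _ _ hxc')).symm c1
    · exact e
  rw [hwd] at hw1
  have hxb := Q.third_unique hw1 hxc' hxd' (Q.symm _ _ hbc) (Q.symm _ _ hbd)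
  exact hb' (hxb ▸ hxa)

/-- The two maximal free sets at `a`. -/
theorem local_two (a : β) : ∃ S1 S2 : Finset β, S1.card = 5 ∧ S2.card = 5 ∧ a ∈ S1 ∧ a ∈ S2 ∧
    Free D S1 ∧ Free D S2 ∧ S1 ∩ S2 = {a} ∧
    ∀ S : Finset β, Free D S → a ∈ S → 5 ≤ S.card → S = S1 ∨ S = S2 := by
  set H := Finset.univ.filter fun c => c ≠ a ∧ ¬ D a c with hH
  have hH8 : H.card = 8 := Q.other_card a
  have hmemH : ∀ {c}, c ∈ H ↔ c ≠ a ∧ ¬ D a c := fun {c} => by simp [hH]
  obtain ⟨b, hbH⟩ := Finset.card_pos.1 (by omega : 0 < H.card)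
  obtain ⟨hb, hb'⟩ := hmemH.1 hbH
  obtain ⟨b', hb1, hb2, hb3, hb4, hb5, hb6⟩ := Q.twin hb hb'
  obtain ⟨K1, hK1, hbK1, hK1H, hK1F, hall1⟩ := Q.companions hb hb'
  obtain ⟨K2, hK2, hbK2, hK2H, hK2F, hall2⟩ := Q.companions hb2 hb3
  have hb6' : ∀ d, d ≠ a → ¬ D a d → nb D a ∩ nb D b' = nb D a ∩ nb D d → d = b' ∨ d = b := fun d h1 h2 h3 =>
    (hb6 d h1 h2 (hb5.trans h3)).symm
  -- no third thing is unrelated to both twins
  have hone : ∀ y, y ≠ a → ¬ D a y → y ≠ b → y ≠ b' → D b y ∨ D b' y := by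
    intro y h1 h2 h3 h4
    by_contra hcon
    push Not at hcon
    refine hcon.2 (Q.symm _ _ (Q.twin_related (c := b) h1 h2 hb hb' (fun h => hcon.1 (Q.symm _ _ h)) (fun e => ?_) hb1
      hb2 hb3 hb5 hb6))
    rcases hb6 y h1 h2 e.symm with h | h
    exacts [h3 h, h4 h]
  have hdis : Disjoint K1 K2 := by
    refine Finset.disjoint_left.2 fun y hy hy' => ?_
    have hyH := hK1H y hy
    by_cases h1 : y = b
    · subst h1
      obtain ⟨z, hz1, hz2⟩ : ∃ z, z ∈ K2 ∧ z ∉ ({y, b'} : Finset β) := by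
        by_contra hcon
        push Not at hcon
        have := Finset.card_le_card (fun z hz => hcon z hz : K2 ⊆ {y, b'})
        rw [hK2] at this
        exact absurd this (by have := Finset.card_le_two (a := y) (b := b'); omega)
      simp only [Finset.mem_insert, Finset.mem_singleton, not_or] at hz2
      rcases hone z (hK2H z hz1).1 (hK2H z hz1).2 hz2.1 hz2.2 with h | h
      exacts [hK2F y hy' z hz1 h, hK2F b' hbK2 z hz1 h]
    by_cases h2 : y = b'
    · subst h2
      obtain ⟨z, hz1, hz2⟩ : ∃ z, z ∈ K1 ∧ z ∉ ({b, y} : Finset β) := by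
        by_contra hcon
        push Not at hcon
        have := Finset.card_le_card (fun z hz => hcon z hz : K1 ⊆ {b, y})
        rw [hK1] at this
        exact absurd this (by have := Finset.card_le_two (a := b) (b := y); omega)
      simp only [Finset.mem_insert, Finset.mem_singleton, not_or] at hz2
      rcases hone z (hK1H z hz1).1 (hK1H z hz1).2 hz2.1 hz2.2 with h | h
      exacts [hK1F b hbK1 z hz1 h, hK1F y hy z hz1 h]
    rcases hone y hyH.1 hyH.2 h1 h2 with h | h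
    exacts [hK1F b hbK1 y hy h, hK2F b' hbK2 y hy' h]
  have hna : ∀ {K : Finset β}, (∀ x ∈ K, x ≠ a ∧ ¬ D a x) → a ∉ K := fun h ha => (h a ha).1 rfl
  have hfree : ∀ {K : Finset β}, (∀ x ∈ K, x ≠ a ∧ ¬ D a x) → Free D K → Free D (insert a K) := by
    intro K h hF x hx y hy
    rcases Finset.mem_insert.1 hx with hxa | hx <;> rcases Finset.mem_insert.1 hy with hya | hy
    · rw [hxa, hya]; exact Q.irrefl _
    · rw [hxa]; exact (h y hy).2
    · rw [hya]; exact fun e => (h x hx).2 (Q.symm _ _ e)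
    · exact hF x hx y hy
  refine ⟨insert a K1, insert a K2, by rw [Finset.card_insert_of_notMem (hna hK1H), hK1],
    by rw [Finset.card_insert_of_notMem (hna hK2H), hK2], Finset.mem_insert_self .., Finset.mem_insert_self ..,
    hfree hK1H hK1F, hfree hK2H hK2F,
    by rw [← Finset.insert_inter_distrib, Finset.disjoint_iff_inter_eq_empty.1 hdis]; rfl, fun S hS haS h5 => ?_⟩
  -- every member other than `a` is in one of the two
  have hcov : K1 ∪ K2 = H := Finset.eq_of_subset_of_card_le (fun y hy => hmemH.2 (by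
      rcases Finset.mem_union.1 hy with h | h
      exacts [hK1H y h, hK2H y h])) (by rw [Finset.card_union_of_disjoint hdis, hK1, hK2, hH8])
  have hSH : S.erase a ⊆ H := fun y hy => hmemH.2 ⟨(Finset.mem_erase.1 hy).1, hS a haS y (Finset.mem_erase.1 hy).2⟩
  have hS4 : 4 ≤ (S.erase a).card := by rw [Finset.card_erase_of_mem haS]; omega
  -- a member of one side is unrelated only to members of its side and its twin
  have hside : ∀ e ∈ S.erase a, ∀ K, K.card = 4 → Free D K → e ∈ K → (∀ x ∈ K, x ≠ a ∧ ¬ D a x) →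
      S = insert a K := by
    intro e he K hK hKF heK hKH
    obtain ⟨hea, hae⟩ := hKH e heK
    obtain ⟨e', e1, e2, e3, e4, e5, e6⟩ := Q.twin hea hae
    obtain ⟨K', hK', heK', hK'H, hK'F, hall'⟩ := Q.companions hea hae
    have htw : ∀ {U : Finset β}, U.card ≥ 4 → Free D U → e ∈ U → (∀ x ∈ U, x ≠ a ∧ ¬ D a x) → e' ∉ U := by
      intro U hU hUF heU hUH he'U
      obtain ⟨z, hz1, hz2⟩ : ∃ z, z ∈ U ∧ z ∉ ({e, e'} : Finset β) := by
        by_contra hcon
        push Not at hcon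
        have := Finset.card_le_card (fun z hz => hcon z hz : U ⊆ {e, e'})
        have := Finset.card_le_two (a := e) (b := e')
        omega
      simp only [Finset.mem_insert, Finset.mem_singleton, not_or] at hz2
      refine hUF z hz1 e' he'U (Q.twin_related (hUH z hz1).1 (hUH z hz1).2 hea hae (hUF z hz1 e heU) (fun h => ?_)
        e1 e2 e3 e5 e6)
      rcases e6 z (hUH z hz1).1 (hUH z hz1).2 h.symm with h | h
      exacts [hz2.1 h, hz2.2 h]
    have hin : ∀ {U : Finset β}, U.card ≥ 4 → Free D U → e ∈ U → (∀ x ∈ U, x ≠ a ∧ ¬ D a x) → U ⊆ K' := by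
      intro U hU hUF heU hUH z hz
      by_cases hze : z = e
      · exact hze ▸ heK'
      refine hall' z (hUH z hz).1 (hUH z hz).2 (hUF e heU z hz) fun h => ?_
      rcases e6 z (hUH z hz).1 (hUH z hz).2 h with h | h
      exacts [hze h, htw hU hUF heU hUH (h ▸ hz)]
    have h1 : K = K' := Finset.eq_of_subset_of_card_le (hin hK.ge hKF heK hKH) (by rw [hK, hK'])
    have h2 : S.erase a = K' := Finset.eq_of_subset_of_card_le
      (hin hS4 (fun x hx y hy => hS x (Finset.mem_erase.1 hx).2 y (Finset.mem_erase.1 hy).2) he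
        fun x hx => hmemH.1 (hSH hx)) (by rw [hK']; exact hS4)
    rw [← Finset.insert_erase haS, h2, h1]
  obtain ⟨e, he⟩ := Finset.card_pos.1 (by omega : 0 < (S.erase a).card)
  have heH := hSH he
  rw [← hcov, Finset.mem_union] at heH
  rcases heH with h | h
  · exact Or.inl (hside e he K1 hK1 hK1F h hK1H)
  · exact Or.inr (hside e he K2 hK2 hK2F h hK2H)

end Fixed

/-- There are six maximal free sets, two through each thing, any two with one thing in common. -/
theorem six : ∃ Φ : Finset (Finset β), Φ.card = 6 ∧ (∀ S, S ∈ Φ ↔ Free D S ∧ 5 ≤ S.card) ∧ (∀ S ∈ Φ, S.card = 5) ∧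
    (∀ a, (Φ.filter fun S => a ∈ S).card = 2) ∧ ∀ S ∈ Φ, ∀ T ∈ Φ, S ≠ T → (S ∩ T).card = 1 := by
  classical
  set Φ := (Finset.univ : Finset (Finset β)).filter fun S => Free D S ∧ 5 ≤ S.card
  have hm : ∀ {S}, S ∈ Φ ↔ Free D S ∧ 5 ≤ S.card := fun {S} => by simp [Φ]
  have h5 : ∀ S ∈ Φ, S.card = 5 := fun S hS => by
    obtain ⟨h1, h2⟩ := hm.1 hS
    obtain ⟨a, ha⟩ := Finset.card_pos.1 (by omega : 0 < S.card)
    obtain ⟨S1, S2, c1, c2, -, -, -, -, -, hall⟩ := Q.local_two a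
    rcases hall S h1 ha h2 with rfl | rfl <;> assumption
  have htwo : ∀ a, ∃ S1 S2, S1 ≠ S2 ∧ (Φ.filter fun S => a ∈ S) = {S1, S2} ∧ S1 ∩ S2 = {a} := by
    intro a
    obtain ⟨S1, S2, c1, c2, a1, a2, f1, f2, hi, hall⟩ := Q.local_two a
    refine ⟨S1, S2, fun e => ?_, ?_, hi⟩
    · rw [e, Finset.inter_self] at hi
      rw [hi, Finset.card_singleton] at c2
      omega
    · ext S
      rw [Finset.mem_filter, hm, Finset.mem_insert, Finset.mem_singleton]
      constructor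
      · exact fun h => hall S h.1.1 h.2 h.1.2
      · rintro (rfl | rfl)
        exacts [⟨⟨f1, c1.ge⟩, a1⟩, ⟨⟨f2, c2.ge⟩, a2⟩]
  have hfilter : ∀ a, (Φ.filter fun S => a ∈ S).card = 2 := fun a => by
    obtain ⟨S1, S2, hne, e, -⟩ := htwo a
    rw [e, Finset.card_pair hne]
  have h6 : Φ.card = 6 := by
    have h := Finset.sum_card_bipartiteAbove_eq_sum_card_bipartiteBelow (s := Φ) (t := (Finset.univ : Finset β))
      (fun S a => a ∈ S)
    rw [Finset.sum_congr rfl fun S hS => show (Finset.bipartiteAbove (fun S a => a ∈ S) Finset.univ S).card = 5 by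
        rw [← h5 S hS]; congr 1; ext a; simp [Finset.bipartiteAbove],
      Finset.sum_congr rfl fun a _ => show (Finset.bipartiteBelow (fun S a => a ∈ S) Φ a).card = 2 from hfilter a,
      Finset.sum_const, Finset.sum_const, Finset.card_univ, Q.card] at h
    simp at h
    omega
  refine ⟨Φ, h6, fun S => hm, h5, hfilter, fun S hS T hT hne => ?_⟩
  have hle : ∀ {U V}, U ∈ Φ → V ∈ Φ → U ≠ V → ∀ {x}, x ∈ U → x ∈ V → U ∩ V = {x} := by
    intro U V hU hV hUV x hxU hxV
    obtain ⟨S1, S2, hn, e, hi⟩ := htwo x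
    have u1 : U ∈ ({S1, S2} : Finset (Finset β)) := by rw [← e]; exact Finset.mem_filter.2 ⟨hU, hxU⟩
    have v1 : V ∈ ({S1, S2} : Finset (Finset β)) := by rw [← e]; exact Finset.mem_filter.2 ⟨hV, hxV⟩
    simp only [Finset.mem_insert, Finset.mem_singleton] at u1 v1
    rcases u1 with rfl | rfl <;> rcases v1 with rfl | rfl
    exacts [absurd rfl hUV, hi, (Finset.inter_comm ..).trans hi, absurd rfl hUV]
  obtain ⟨x, hx⟩ : ∃ x, x ∈ S ∩ T := by
    by_contra hcon
    push Not at hcon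
    have hex : ∀ x : S, ∃ U ∈ (Φ.erase S).erase T, x.1 ∈ U := by
      intro x
      obtain ⟨S1, S2, hn, e, -⟩ := htwo x.1
      have hs : S ∈ ({S1, S2} : Finset (Finset β)) := by rw [← e]; exact Finset.mem_filter.2 ⟨hS, x.2⟩
      have m1 : S1 ∈ Φ.filter fun U => x.1 ∈ U := by rw [e]; simp
      have m2 : S2 ∈ Φ.filter fun U => x.1 ∈ U := by rw [e]; simp
      rw [Finset.mem_filter] at m1 m2
      simp only [Finset.mem_insert, Finset.mem_singleton] at hs
      rcases hs with rfl | rfl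
      · exact ⟨S2, Finset.mem_erase.2 ⟨fun h => hcon x.1 (Finset.mem_inter.2 ⟨x.2, h ▸ m2.2⟩),
          Finset.mem_erase.2 ⟨hn.symm, m2.1⟩⟩, m2.2⟩
      · exact ⟨S1, Finset.mem_erase.2 ⟨fun h => hcon x.1 (Finset.mem_inter.2 ⟨x.2, h ▸ m1.2⟩),
          Finset.mem_erase.2 ⟨hn, m1.1⟩⟩, m1.2⟩
    choose f hf1 hf2 using hex
    have hinj : Function.Injective fun x : S => (⟨f x, hf1 x⟩ : ((Φ.erase S).erase T : Finset (Finset β))) := by
      intro x y e
      have e' : f x = f y := congrArg Subtype.val e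
      have hU := Finset.mem_erase.1 (Finset.mem_erase.1 (hf1 x)).2
      have h1 := hle hS hU.2 (Ne.symm hU.1) x.2 (hf2 x)
      have h2 : y.1 ∈ S ∩ f x := Finset.mem_inter.2 ⟨y.2, e' ▸ hf2 y⟩
      rw [h1, Finset.mem_singleton] at h2
      exact Subtype.ext h2.symm
    have := Fintype.card_le_of_injective _ hinj
    rw [Fintype.card_coe, Fintype.card_coe, h5 S hS, Finset.card_erase_of_mem (Finset.mem_erase.2 ⟨hne.symm, hT⟩),
      Finset.card_erase_of_mem hS, h6] at this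
    omega
  rw [hle hS hT hne (Finset.mem_inter.1 hx).1 (Finset.mem_inter.1 hx).2, Finset.card_singleton]

end GQ

end Cfsg.Agent.TwoGroups.SrgSeventySeven
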